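import Cfsg.Agent.Lib.SmallSimple.G168

/-!
A simple group of order 168: structure of the Sylow 2-subgroups and element counts.
-/

set_option autoImplicit false

namespace Cfsg.Agent.Lib.SmallSimple.G168b

open Cfsg.Agent.Lib.Small.Basic Cfsg.Agent.Lib.Small.Sieve Cfsg.Agent.Lib.SmallSimple.Count
  Cfsg.Agent.Lib.SmallSimple.Sign Cfsg.Agent.Lib.SmallSimple.Inter Cfsg.Agent.Lib.SmallSimple.G168
  MulAction

section General

variable {G : Type*} [Group G] [Finite G]

/-- Size of a conjugacy class. -/
theorem card_conj_mul_card_centralizer (x : G) :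
    Nat.card {g : G // IsConj x g} * Nat.card (Subgroup.centralizer ({x} : Set G)) = Nat.card G := by
  have h1 : Nat.card (orbit (ConjAct G) x) * Nat.card (stabilizer (ConjAct G) x)
      = Nat.card (ConjAct G) := by
    rw [← Nat.card_prod]
    exact Nat.card_congr (MulAction.orbitProdStabilizerEquivGroup (ConjAct G) x)
  have h2 : Nat.card (orbit (ConjAct G) x) = Nat.card {g : G // IsConj x g} := by
    apply Nat.card_congr
    apply Equiv.subtypeEquivRight
    intro g
    rw [ConjAct.mem_orbit_conjAct]
    exact isConj_comm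
  have h3 : Nat.card (ConjAct G) = Nat.card G := Nat.card_congr ConjAct.ofConjAct.toEquiv
  rw [ConjAct.stabilizer_eq_centralizer, h2, h3] at h1
  exact h1

/-- If every element has order in `S`, the numbers of elements of each order in `S` add up to `|G|`. -/
theorem sum_card_orderOf_eq (S : Finset ℕ) (hS : ∀ g : G, orderOf g ∈ S) :
    ∑ a ∈ S, Nat.card {g : G // orderOf g = a} = Nat.card G := by
  classical
  have := Fintype.ofFinite G
  have h1 : ∀ a, Nat.card {g : G // orderOf g = a} =
      (Finset.univ.filter (fun g : G => orderOf g = a)).card := by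
    intro a
    rw [Nat.card_eq_fintype_card, Fintype.card_subtype]
  simp only [h1]
  rw [← Finset.card_eq_sum_card_fiberwise (fun g _ => hS g), Finset.card_univ, Nat.card_eq_fintype_card]

end General

variable {G : Type*} [Group G] [Finite G] [IsSimpleGroup G] (h : Nat.card G = 168)

include h

/-- `⟨a⟩` has index 2 in `T`. -/
theorem index_zpowers (T : Sylow 2 G) {a : G} (ha : a ∈ (T : Subgroup G)) (h4 : orderOf a = 4) :
    ((Subgroup.zpowers a).subgroupOf (T : Subgroup G)).index = 2 := by
  have h1 := ((Subgroup.zpowers a).subgroupOf (T : Subgroup G)).card_mul_index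
  have hle : Subgroup.zpowers a ≤ (T : Subgroup G) := (Subgroup.zpowers_le).mpr ha
  rw [card_subgroupOf, inf_eq_left.mpr hle, Nat.card_zpowers, h4, card_T h T] at h1
  omega

omit h [IsSimpleGroup G] in
/-- The elements of `⟨a⟩` for `a` of order 4. -/
theorem mem_zpowers_four {a w : G} (h4 : orderOf a = 4) (hw : w ∈ Subgroup.zpowers a) :
    w = 1 ∨ w = a ∨ w = a * a ∨ w = a⁻¹ := by
  classical
  have hfin : IsOfFinOrder a := isOfFinOrder_of_finite a
  rw [← hfin.mem_powers_iff_mem_zpowers, hfin.mem_powers_iff_mem_range_orderOf, h4] at hw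
  simp only [Finset.mem_image, Finset.mem_range] at hw
  obtain ⟨k, hk, rfl⟩ := hw
  have ha4 : a ^ 4 = 1 := by rw [← h4]; exact pow_orderOf_eq_one a
  interval_cases k
  · left; simp
  · right; left; simp
  · right; right; left; rw [pow_two]
  · right; right; right
    rw [eq_inv_iff_mul_eq_one, ← pow_succ]
    exact ha4

omit h [IsSimpleGroup G] in
theorem sq_sq_eq_one {a : G} (h4 : orderOf a = 4) : a * a * (a * a) = 1 := by
  have := pow_orderOf_eq_one a
  rw [h4] at this
  rw [← this]
  simp only [pow_succ, pow_zero, one_mul, mul_assoc]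

omit h [IsSimpleGroup G] in
theorem sq_ne_one_of_four {a : G} (h4 : orderOf a = 4) : a * a ≠ 1 := by
  intro h1
  have h2 : orderOf a ∣ 2 := orderOf_dvd_of_pow_eq_one (by rw [pow_two]; exact h1)
  rw [h4] at h2
  omega

/-- An element of `T` outside `⟨a⟩` inverts `a`. -/
theorem inv_of_not_mem (T : Sylow 2 G) {a u : G} (ha : a ∈ (T : Subgroup G)) (h4 : orderOf a = 4)
    (hu : u ∈ (T : Subgroup G)) (hua : u ∉ Subgroup.zpowers a) : u * a * u⁻¹ = a⁻¹ := by
  have hidx := index_zpowers h T ha h4
  have hnorm := Subgroup.normal_of_index_eq_two hidx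
  have hw : u * a * u⁻¹ ∈ Subgroup.zpowers a := by
    have h1 := hnorm.conj_mem ⟨a, ha⟩ (by
      rw [Subgroup.mem_subgroupOf]; exact Subgroup.mem_zpowers a) ⟨u, hu⟩
    rw [Subgroup.mem_subgroupOf] at h1
    exact h1
  have ha1 : a ≠ 1 := by
    rintro rfl
    rw [orderOf_one] at h4
    omega
  have hne := sq_ne_one_of_four h4
  rcases mem_zpowers_four h4 hw with h1 | h1 | h1 | h1
  · exfalso
    apply ha1
    have : a = u⁻¹ * (u * a * u⁻¹) * u := by group
    rw [this, h1]; simp
  · -- `u` centralizes `a`: then `T` would be abelian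
    exfalso
    have hc : u * a = a * u := by
      calc u * a = u * a * u⁻¹ * u := by group
        _ = a * u := by rw [h1]
    have hcz : ∀ c ∈ Subgroup.zpowers a, u * c = c * u := by
      intro c hc'
      obtain ⟨k, rfl⟩ := Subgroup.mem_zpowers_iff.mp hc'
      exact ((Commute.zpow_right (show Commute u a from hc) k)).eq
    have hcc : ∀ c ∈ Subgroup.zpowers a, ∀ d ∈ Subgroup.zpowers a, c * d = d * c := by
      intro c hc' d hd'
      obtain ⟨k, rfl⟩ := Subgroup.mem_zpowers_iff.mp hc'
      obtain ⟨l, rfl⟩ := Subgroup.mem_zpowers_iff.mp hd'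
      exact ((Commute.refl a).zpow_zpow k l).eq
    have hform : ∀ t ∈ (T : Subgroup G), t ∈ Subgroup.zpowers a ∨
        ∃ c ∈ Subgroup.zpowers a, t = u * c := by
      intro t ht
      by_cases hta : t ∈ Subgroup.zpowers a
      · left; exact hta
      · right
        refine ⟨u⁻¹ * t, ?_, by group⟩
        have h5 := (Subgroup.mul_mem_iff_of_index_two hidx (a := ⟨u, hu⟩⁻¹) (b := ⟨t, ht⟩)).mpr (by
          constructor
          · intro h6
            exfalso
            apply hua
            have h7 : (⟨u, hu⟩ : ↥(T : Subgroup G))⁻¹ ∈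
              (Subgroup.zpowers a).subgroupOf (T : Subgroup G) := h6
            rw [Subgroup.inv_mem_iff, Subgroup.mem_subgroupOf] at h7
            exact h7
          · intro h6
            exfalso
            apply hta
            rw [Subgroup.mem_subgroupOf] at h6
            exact h6)
        rw [Subgroup.mem_subgroupOf] at h5
        exact h5
    obtain ⟨x, hx, y, hy, hxy⟩ := T_not_comm h T
    apply hxy
    rcases hform x hx with h5 | ⟨c, hc', rfl⟩ <;> rcases hform y hy with h6 | ⟨d, hd', rfl⟩
    · exact hcc _ h5 _ h6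
    · calc x * (u * d) = (x * u) * d := by group
        _ = (u * x) * d := by rw [hcz x h5]
        _ = u * (x * d) := by group
        _ = u * (d * x) := by rw [hcc x h5 d hd']
        _ = (u * d) * x := by group
    · calc (u * c) * y = u * (c * y) := by group
        _ = u * (y * c) := by rw [hcc c hc' y h6]
        _ = (u * y) * c := by group
        _ = (y * u) * c := by rw [hcz y h6]
        _ = y * (u * c) := by group
    · calc (u * c) * (u * d) = u * (c * u) * d := by group
        _ = u * (u * c) * d := by rw [hcz c hc']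
        _ = u * u * (c * d) := by group
        _ = u * u * (d * c) := by rw [hcc c hc' d hd']
        _ = u * (u * d) * c := by group
        _ = u * (d * u) * c := by rw [hcz d hd']
        _ = (u * d) * (u * c) := by group
  · exfalso
    -- then `a * a = u (a * a) u⁻¹`, whose square would be one
    have h5 : (u * a * u⁻¹) * (u * a * u⁻¹) = a * a * (a * a) := by rw [h1]
    have h6 : (u * a * u⁻¹) * (u * a * u⁻¹) = u * (a * a) * u⁻¹ := by group
    have ha4 : a * a * (a * a) = 1 := sq_sq_eq_one h4
    rw [ha4, h6] at h5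
    apply hne
    have : a * a = u⁻¹ * (u * (a * a) * u⁻¹) * u := by group
    rw [this, h5]; simp
  · exact h1

/-- Existence of an element outside `⟨a⟩` -/
theorem exists_not_mem (T : Sylow 2 G) (a : G) (h4 : orderOf a = 4) :
    ∃ u ∈ (T : Subgroup G), u ∉ Subgroup.zpowers a := by
  by_contra hcon
  push Not at hcon
  have hle : (T : Subgroup G) ≤ Subgroup.zpowers a := hcon
  have := Subgroup.card_le_of_le hle
  rw [card_T h T, Nat.card_zpowers, h4] at this
  omega

/-- `a * a` is central in `T`. -/
theorem sq_central (T : Sylow 2 G) {a t : G} (ha : a ∈ (T : Subgroup G)) (h4 : orderOf a = 4)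
    (ht : t ∈ (T : Subgroup G)) : t * (a * a) = (a * a) * t := by
  by_cases hta : t ∈ Subgroup.zpowers a
  · obtain ⟨k, rfl⟩ := Subgroup.mem_zpowers_iff.mp hta
    have : Commute (a ^ k) (a * a) :=
      ((Commute.refl a).zpow_left k).mul_right ((Commute.refl a).zpow_left k)
    exact this.eq
  · have h1 := inv_of_not_mem h T ha h4 ht hta
    have ha4 : a * a * (a * a) = 1 := sq_sq_eq_one h4
    have h2 : t * (a * a) * t⁻¹ = a⁻¹ * a⁻¹ := by
      rw [← h1]; group
    have h3 : a⁻¹ * a⁻¹ = a * a := by
      rw [← mul_inv_rev, inv_eq_iff_mul_eq_one]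
      exact ha4
    rw [h3] at h2
    calc t * (a * a) = t * (a * a) * t⁻¹ * t := by group
      _ = (a * a) * t := by rw [h2]

/-- Centralizer of a nontrivial central element of `T` -/
theorem centralizer_eq_T (T : Sylow 2 G) {z : G} (hz : z ∈ (T : Subgroup G)) (hz1 : z ≠ 1)
    (hcen : ∀ t ∈ (T : Subgroup G), t * z = z * t) :
    Subgroup.centralizer ({z} : Set G) = T := by
  have hTC : (T : Subgroup G) ≤ Subgroup.centralizer ({z} : Set G) := by
    intro t ht
    rw [Subgroup.mem_centralizer_singleton_iff]
    exact hcen t ht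
  have hz8 := pow_eight_of_mem h T hz
  have h3 : ¬ 3 ∣ Nat.card (Subgroup.centralizer ({z} : Set G)) := by
    intro hd
    obtain ⟨x, hx⟩ := exists_prime_orderOf_dvd_card' 3 hd
    have hx' : orderOf (x : G) = 3 := by rw [Subgroup.orderOf_coe]; exact hx
    apply not_commute_three h hz1 hz8 hx'
    have := Subgroup.mem_centralizer_singleton_iff.mp x.2
    exact this.symm
  have h7 : ¬ 7 ∣ Nat.card (Subgroup.centralizer ({z} : Set G)) := by
    intro hd
    obtain ⟨x, hx⟩ := exists_prime_orderOf_dvd_card' 7 hd
    have hx' : orderOf (x : G) = 7 := by rw [Subgroup.orderOf_coe]; exact hx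
    apply not_commute_seven h hz1 hz8 hx'
    have := Subgroup.mem_centralizer_singleton_iff.mp x.2
    exact this.symm
  have hdvd : Nat.card (Subgroup.centralizer ({z} : Set G)) ∣ 8 * 21 := by
    have := Subgroup.card_subgroup_dvd_card (Subgroup.centralizer ({z} : Set G))
    rw [h] at this
    exact this
  have hcop : Nat.Coprime (Nat.card (Subgroup.centralizer ({z} : Set G))) 21 := by
    have h1 : Nat.Coprime (Nat.card (Subgroup.centralizer ({z} : Set G))) 3 :=
      ((Nat.Prime.coprime_iff_not_dvd (by norm_num)).mpr h3).symm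
    have h2 : Nat.Coprime (Nat.card (Subgroup.centralizer ({z} : Set G))) 7 :=
      ((Nat.Prime.coprime_iff_not_dvd (by norm_num)).mpr h7).symm
    exact Nat.Coprime.mul_right h1 h2
  have hd8 := hcop.dvd_of_dvd_mul_right hdvd
  symm
  apply Subgroup.eq_of_le_of_card_ge hTC
  rw [card_T h T]
  exact Nat.le_of_dvd (by norm_num) hd8

/-- The centralizer of an element of order 4. -/
theorem centralizer_order_four {a : G} (h4 : orderOf a = 4) :
    Subgroup.centralizer ({a} : Set G) = Subgroup.zpowers a := by
  have hpg : IsPGroup 2 (Subgroup.zpowers a) := by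
    apply IsPGroup.of_card (n := 2)
    rw [Nat.card_zpowers, h4]; norm_num
  obtain ⟨T, hT⟩ := hpg.exists_le_sylow
  have ha : a ∈ (T : Subgroup G) := hT (Subgroup.mem_zpowers a)
  apply le_antisymm
  · intro g hg
    have hg' : g * a = a * g := Subgroup.mem_centralizer_singleton_iff.mp hg
    have hg2 : g ∈ Subgroup.centralizer ({a * a} : Set G) := by
      rw [Subgroup.mem_centralizer_singleton_iff]
      exact ((show Commute g a from hg').mul_right (show Commute g a from hg')).eq
    rw [centralizer_eq_T h T ((T : Subgroup G).mul_mem ha ha) (sq_ne_one_of_four h4)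
      (fun t ht => sq_central h T ha h4 ht)] at hg2
    by_contra hgz
    have h1 := inv_of_not_mem h T ha h4 hg2 hgz
    have h2 : g * a * g⁻¹ = a := by rw [hg']; group
    rw [h2] at h1
    apply sq_ne_one_of_four h4
    calc a * a = a⁻¹ * a := by rw [← h1]
      _ = 1 := by simp
  · rw [Subgroup.zpowers_le, Subgroup.mem_centralizer_singleton_iff]

/-- Element orders. -/
theorem orderOf_mem (g : G) : orderOf g = 1 ∨ orderOf g = 2 ∨ orderOf g = 3 ∨ orderOf g = 4 ∨
    orderOf g = 7 := by
  by_cases h7 : 7 ∣ orderOf g
  · right; right; right; right; exact orderOf_eq_seven h g h7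
  by_cases h3 : 3 ∣ orderOf g
  · right; right; left; exact orderOf_eq_three h g h3
  have hdvd : orderOf g ∣ 8 * 21 := by
    have := orderOf_dvd_natCard g
    rw [h] at this
    exact this
  have hcop : Nat.Coprime (orderOf g) 21 := by
    have h1 : Nat.Coprime (orderOf g) 3 :=
      ((Nat.Prime.coprime_iff_not_dvd (by norm_num)).mpr h3).symm
    have h2 : Nat.Coprime (orderOf g) 7 :=
      ((Nat.Prime.coprime_iff_not_dvd (by norm_num)).mpr h7).symm
    exact Nat.Coprime.mul_right h1 h2
  have hd8 := hcop.dvd_of_dvd_mul_right hdvd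
  have hne8 : orderOf g ≠ 8 := by
    intro h8
    have hpg : IsPGroup 2 (Subgroup.zpowers g) := by
      apply IsPGroup.of_card (n := 3)
      rw [Nat.card_zpowers, h8]; norm_num
    obtain ⟨T, hT⟩ := hpg.exists_le_sylow
    obtain ⟨a, ha, b, hb, hab⟩ := T_not_comm h T
    have hg : g ∈ (T : Subgroup G) := hT (Subgroup.mem_zpowers g)
    have hcyc : IsCyclic ↥(T : Subgroup G) :=
      isCyclic_of_orderOf_eq_card (⟨g, hg⟩ : ↥(T : Subgroup G)) (by
        rw [card_T h T, Subgroup.orderOf_mk, h8])
    apply hab
    have := mul_comm' (⟨a, ha⟩ : ↥(T : Subgroup G)) ⟨b, hb⟩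
    exact congrArg Subtype.val this
  have hle := Nat.le_of_dvd (by norm_num) hd8
  have hpos : 0 < orderOf g := orderOf_pos g
  interval_cases hx : orderOf g <;> simp_all

theorem card_order7 : Nat.card {g : G // orderOf g = 7} = 48 := by
  obtain ⟨P⟩ : Nonempty (Sylow 7 G) := inferInstance
  rw [card_orderOf_eq_of_card_sylow P (card_P7 h P), card_sylow7 h]

theorem card_order3 : Nat.card {g : G // orderOf g = 3} = 56 := by
  obtain ⟨P⟩ : Nonempty (Sylow 3 G) := inferInstance
  rw [card_orderOf_eq_of_card_sylow P (card_P3 h P), card_sylow3 h]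

omit h [IsSimpleGroup G] in
theorem card_order1 : Nat.card {g : G // orderOf g = 1} = 1 := by
  have : Nat.card {g : G // orderOf g = 1} = Nat.card {g : G // g = 1} := by
    apply Nat.card_congr
    apply Equiv.subtypeEquivRight
    intro g
    exact orderOf_eq_one_iff
  rw [this]
  simp

theorem card_two_add_card_four :
    Nat.card {g : G // orderOf g = 2} + Nat.card {g : G // orderOf g = 4} = 63 := by
  have h1 := sum_card_orderOf_eq (G := G) {1, 2, 3, 4, 7} (by
    intro g
    simp only [Finset.mem_insert, Finset.mem_singleton]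
    exact orderOf_mem h g)
  rw [Finset.sum_insert (by decide), Finset.sum_insert (by decide), Finset.sum_insert (by decide),
    Finset.sum_insert (by decide), Finset.sum_singleton, card_order1, card_order3 h, card_order7 h,
    h] at h1
  omega

omit [IsSimpleGroup G] in
/-- The class of an element with given centralizer order -/
theorem card_class {x : G} {c d : ℕ} (hc : Nat.card (Subgroup.centralizer ({x} : Set G)) = c)
    (hcd : 168 = d * c) (hc0 : 0 < c) : Nat.card {g : G // IsConj x g} = d := by
  have h1 := card_conj_mul_card_centralizer x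
  rw [hc, h, hcd] at h1
  exact Nat.eq_of_mul_eq_mul_right hc0 h1

omit [Finite G] h [IsSimpleGroup G] in
/-- The class of a given element is inside the set of elements of that order. -/
theorem class_subset {x : G} : ∀ g : {g : G // IsConj x g}, orderOf g.1 = orderOf x := by
  rintro ⟨g, hg⟩
  obtain ⟨u, rfl⟩ := isConj_iff.mp hg
  show orderOf (u * x * u⁻¹) = orderOf x
  have : u * x * u⁻¹ = MulAut.conj u x := rfl
  rw [this, MulEquiv.orderOf_eq]

omit h [IsSimpleGroup G] in
/-- A class equal to the set of all elements of that order when the numbers agree. -/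
theorem all_conj_of_card {x : G} {n : ℕ} (hx : orderOf x = n)
    (hcard : Nat.card {g : G // orderOf g = n} ≤ Nat.card {g : G // IsConj x g})
    (y : G) (hy : orderOf y = n) : IsConj x y := by
  let f : {g : G // IsConj x g} → {g : G // orderOf g = n} := fun g =>
    ⟨g.1, by rw [class_subset g, hx]⟩
  have hf : Function.Injective f := by
    intro a b hab
    have h9 : (f a).1 = (f b).1 := congrArg Subtype.val hab
    exact Subtype.ext h9
  have hb := hf.bijective_of_nat_card_le hcard
  obtain ⟨g, hg⟩ := hb.2 ⟨y, hy⟩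
  have : g.1 = y := congrArg Subtype.val hg
  rw [← this]
  exact g.2

end Cfsg.Agent.Lib.SmallSimple.G168b
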