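import Cfsg.Agent.Lib.SmallSimple.G168b
import Cfsg.Agent.Lib.TwoGroups.Present

/-!
A simple group of order 168: counts of elements, classes, the Sylow 2-subgroup is dihedral.
-/

set_option autoImplicit false

namespace Cfsg.Agent.Lib.SmallSimple.G168c

open Cfsg.Agent.Lib.Small.Basic Cfsg.Agent.Lib.Small.Sieve Cfsg.Agent.Lib.SmallSimple.Count
  Cfsg.Agent.Lib.SmallSimple.Sign Cfsg.Agent.Lib.SmallSimple.Inter Cfsg.Agent.Lib.SmallSimple.G168
  Cfsg.Agent.Lib.SmallSimple.G168b MulAction

variable {G : Type*} [Group G] [Finite G] [IsSimpleGroup G] (h : Nat.card G = 168)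

include h

theorem exists_sylow_and_four : ∃ (T : Sylow 2 G) (a : G), a ∈ (T : Subgroup G) ∧ orderOf a = 4 := by
  obtain ⟨T⟩ : Nonempty (Sylow 2 G) := inferInstance
  obtain ⟨a, ha, h4⟩ := exists_order_four h T
  exact ⟨T, a, ha, h4⟩

omit h [IsSimpleGroup G] [Finite G] in
theorem orderOf_sq_of_four {a : G} (h4 : orderOf a = 4) : orderOf (a * a) = 2 := by
  rw [← pow_two]
  rw [orderOf_pow' a (by norm_num), h4]
  rfl

theorem card_class_four {a : G} (h4 : orderOf a = 4) : Nat.card {g : G // IsConj a g} = 42 := by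
  apply card_class h (c := 4) _ (by norm_num) (by norm_num)
  rw [centralizer_order_four h h4, Nat.card_zpowers, h4]

theorem card_class_central {T : Sylow 2 G} {z : G} (hz : z ∈ (T : Subgroup G)) (hz1 : z ≠ 1)
    (hcen : ∀ t ∈ (T : Subgroup G), t * z = z * t) : Nat.card {g : G // IsConj z g} = 21 := by
  apply card_class h (c := 8) _ (by norm_num) (by norm_num)
  rw [centralizer_eq_T h T hz hz1 hcen, card_T h T]

omit [IsSimpleGroup G] h in
theorem card_class_le_order {x : G} {n : ℕ} (hx : orderOf x = n) :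
    Nat.card {g : G // IsConj x g} ≤ Nat.card {g : G // orderOf g = n} := by
  apply Nat.card_le_card_of_injective (fun g : {g : G // IsConj x g} =>
    (⟨g.1, by rw [class_subset g, hx]⟩ : {g : G // orderOf g = n}))
  intro a b hab
  have h9 : a.1 = b.1 := by
    have h8 := Subtype.mk.inj hab
    exact h8
  exact Subtype.ext h9

/-- The number of elements of order 4. -/
theorem card_order4 : Nat.card {g : G // orderOf g = 4} = 42 := by
  obtain ⟨T, a, ha, h4⟩ := exists_sylow_and_four (G := G) h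
  have h1 := card_class_le_order h4
  rw [card_class_four h h4] at h1
  have h2 := card_class_le_order (orderOf_sq_of_four h4)
  rw [card_class_central h ((T : Subgroup G).mul_mem ha ha) (sq_ne_one_of_four h4)
    (fun t ht => sq_central h T ha h4 ht)] at h2
  have h3 := card_two_add_card_four h
  omega

/-- The number of involutions. -/
theorem card_order2 : Nat.card {g : G // orderOf g = 2} = 21 := by
  have h1 := card_order4 h
  have h3 := card_two_add_card_four h
  omega

/-- All elements of order 4 are conjugate. -/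
theorem conj_order4 (s t : G) (hs : orderOf s = 4) (ht : orderOf t = 4) : IsConj s t :=
  all_conj_of_card hs (by rw [card_order4 h, card_class_four h hs]) t ht

/-- All involutions are conjugate. -/
theorem conj_order2 (s t : G) (hs : orderOf s = 2) (ht : orderOf t = 2) : IsConj s t := by
  obtain ⟨T, a, ha, h4⟩ := exists_sylow_and_four (G := G) h
  have hz := orderOf_sq_of_four h4
  have hc : ∀ y : G, orderOf y = 2 → IsConj (a * a) y := by
    intro y hy
    apply all_conj_of_card hz _ y hy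
    rw [card_order2 h, card_class_central h ((T : Subgroup G).mul_mem ha ha) (sq_ne_one_of_four h4)
      (fun t ht => sq_central h T ha h4 ht)]
  exact (hc s hs).symm.trans (hc t ht)

/-- All elements of order 3 are conjugate. -/
theorem conj_order3 (s t : G) (hs : orderOf s = 3) (ht : orderOf t = 3) : IsConj s t := by
  apply all_conj_of_card hs _ t ht
  rw [card_order3 h, card_class h (c := 3) (d := 56) _ (by norm_num) (by norm_num)]
  rw [cent_order3 h s hs, Nat.card_zpowers, hs]

/-- The class of an element of order 7 has 24 elements. -/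
theorem card_class_seven {x : G} (hx : orderOf x = 7) : Nat.card {g : G // IsConj x g} = 24 := by
  apply card_class h (c := 7) _ (by norm_num) (by norm_num)
  rw [cent_order7 h x hx, Nat.card_zpowers, hx]

/-- An element of order 7 is not conjugate to its inverse. -/
theorem not_conj_inv_seven {x : G} (hx : orderOf x = 7) : ¬ IsConj x x⁻¹ := by
  intro hc
  obtain ⟨g, hg⟩ := isConj_iff.mp hc
  obtain ⟨Q, hQ⟩ := exists_sylow_eq_zpowers (card_P7 h) x hx
  have hgN : g ∈ Subgroup.normalizer ((Q : Subgroup G) : Set G) := by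
    rw [Subgroup.mem_normalizer_iff_map_conj_eq, hQ]
    have hle : (Subgroup.zpowers x).map (MulAut.conj g).toMonoidHom ≤ Subgroup.zpowers x := by
      rw [MonoidHom.map_zpowers, Subgroup.zpowers_le]
      show g * x * g⁻¹ ∈ _
      rw [hg]
      exact Subgroup.inv_mem _ (Subgroup.mem_zpowers x)
    apply Subgroup.eq_of_le_of_card_ge hle
    rw [Subgroup.card_map_of_injective (MulAut.conj g).injective]
  have hodd : orderOf g ∣ 21 := by
    have h1 : orderOf (⟨g, hgN⟩ : Subgroup.normalizer ((Q : Subgroup G) : Set G)) ∣ _ :=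
      orderOf_dvd_natCard _
    rw [Subgroup.orderOf_mk, card_N7 h Q] at h1
    exact h1
  -- `g ^ 2` centralizes `x`
  have hg2 : g * g * x = x * (g * g) := by
    have h1 : g * x = x⁻¹ * g := by
      calc g * x = g * x * g⁻¹ * g := by group
        _ = x⁻¹ * g := by rw [hg]
    have h2 : g * x⁻¹ = x * g := by
      have h3 : g * x⁻¹ * g⁻¹ = x := by
        have : g * x⁻¹ * g⁻¹ = (g * x * g⁻¹)⁻¹ := by group
        rw [this, hg, inv_inv]
      calc g * x⁻¹ = g * x⁻¹ * g⁻¹ * g := by group
        _ = x * g := by rw [h3]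
    calc g * g * x = g * (g * x) := by group
      _ = g * (x⁻¹ * g) := by rw [h1]
      _ = (g * x⁻¹) * g := by group
      _ = (x * g) * g := by rw [h2]
      _ = x * (g * g) := by group
  have hcomm : Commute (g * g) x := hg2
  -- `g` is a power of `g * g`
  obtain ⟨k, hk⟩ : ∃ k : ℕ, orderOf g + 1 = 2 * k := by
    have : Odd (orderOf g) := Odd.of_dvd_nat (by decide) hodd
    obtain ⟨m, hm⟩ := this
    exact ⟨m + 1, by omega⟩
  have hpow : g = (g * g) ^ k := by
    rw [← pow_two, ← pow_mul, ← hk, pow_succ, pow_orderOf_eq_one, one_mul]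
  have hgx : g * x = x * g := by
    rw [hpow]
    exact (hcomm.pow_left k).eq
  have hxx : x = x⁻¹ := by
    rw [← hg, hgx]
    group
  have h2 : x ^ 2 = 1 := by
    rw [pow_two]
    nth_rewrite 1 [hxx]
    simp
  have := orderOf_dvd_of_pow_eq_one h2
  rw [hx] at this
  omega

/-- The Sylow 2-subgroup has a non-central involution. -/
theorem exists_noncentral_involution (T : Sylow 2 G) :
    ∃ b ∈ (T : Subgroup G), b * b = 1 ∧ b ≠ 1 ∧ ∃ t ∈ (T : Subgroup G), t * b ≠ b * t := by
  -- Step 1: in some Sylow subgroup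
  obtain ⟨T₀, hT₀⟩ : ∃ T₀ : Sylow 2 G,
      ∃ b ∈ (T₀ : Subgroup G), b * b = 1 ∧ b ≠ 1 ∧ ∃ t ∈ (T₀ : Subgroup G), t * b ≠ b * t := by
    obtain ⟨T₁, T₂, hne, hidx⟩ := Cfsg.Agent.S0985.result (G := G) 2 3 (by
      rw [card_sylow2 h]; decide)
    have hcard := ((T₂ : Subgroup G).subgroupOf (T₁ : Subgroup G)).card_mul_index
    rw [card_T h T₁, card_subgroupOf] at hcard
    have hidx' : ((T₂ : Subgroup G).subgroupOf (T₁ : Subgroup G)).index ≤ 4 := by
      simpa using hidx
    have hpos : 1 < Nat.card ↥((T₂ : Subgroup G) ⊓ (T₁ : Subgroup G)) := by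
      by_contra hcon
      have h1 : Nat.card ↥((T₂ : Subgroup G) ⊓ (T₁ : Subgroup G)) ≤ 1 := by omega
      have := Nat.mul_le_mul h1 hidx'
      omega
    have h2d : 2 ∣ Nat.card ↥((T₂ : Subgroup G) ⊓ (T₁ : Subgroup G)) := by
      have h1 : Nat.card ↥((T₂ : Subgroup G) ⊓ (T₁ : Subgroup G)) ∣ 2 ^ 3 := by
        rw [← show Nat.card ↥(T₁ : Subgroup G) = 2 ^ 3 from by rw [card_T h T₁]; rfl]
        exact Subgroup.card_dvd_of_le inf_le_right
      obtain ⟨j, hj, hj2⟩ := (Nat.dvd_prime_pow Nat.prime_two).mp h1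
      rw [hj2] at hpos ⊢
      have : j ≠ 0 := by
        rintro rfl
        simp at hpos
      exact dvd_pow_self 2 this
    obtain ⟨w', hw'⟩ := exists_prime_orderOf_dvd_card' 2 h2d
    have hw : orderOf (w' : G) = 2 := by rw [Subgroup.orderOf_coe]; exact hw'
    have hwT₁ : (w' : G) ∈ (T₁ : Subgroup G) := w'.2.2
    have hwT₂ : (w' : G) ∈ (T₂ : Subgroup G) := w'.2.1
    have hw1 : (w' : G) ≠ 1 := by
      intro h1
      rw [h1, orderOf_one] at hw
      omega
    have hww : (w' : G) * w' = 1 := by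
      have h9 := pow_orderOf_eq_one (w' : G)
      rw [hw, pow_two] at h9
      exact h9
    by_cases hc₁ : ∃ t ∈ (T₁ : Subgroup G), t * (w' : G) ≠ w' * t
    · exact ⟨T₁, w', hwT₁, hww, hw1, hc₁⟩
    by_cases hc₂ : ∃ t ∈ (T₂ : Subgroup G), t * (w' : G) ≠ w' * t
    · exact ⟨T₂, w', hwT₂, hww, hw1, hc₂⟩
    exfalso
    push Not at hc₁ hc₂
    apply hne
    apply Sylow.ext
    rw [← centralizer_eq_T h T₁ hwT₁ hw1 hc₁, centralizer_eq_T h T₂ hwT₂ hw1 hc₂]
  -- Step 2: conjugate
  obtain ⟨b, hb, hbb, hb1, t, ht, htb⟩ := hT₀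
  obtain ⟨g, rfl⟩ := MulAction.exists_smul_eq G T₀ T
  have hmem : ∀ x ∈ (T₀ : Subgroup G), g * x * g⁻¹ ∈ ((g • T₀ : Sylow 2 G) : Subgroup G) := by
    intro x hx
    rw [Sylow.coe_subgroup_smul]
    exact ⟨x, hx, rfl⟩
  refine ⟨g * b * g⁻¹, hmem b hb, ?_, ?_, g * t * g⁻¹, hmem t ht, ?_⟩
  · calc g * b * g⁻¹ * (g * b * g⁻¹) = g * (b * b) * g⁻¹ := by group
      _ = 1 := by rw [hbb]; group
  · intro h1
    apply hb1
    have : b = g⁻¹ * (g * b * g⁻¹) * g := by group
    rw [this, h1]; simp
  · intro h1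
    apply htb
    have h2 : g * (t * b) * g⁻¹ = g * (b * t) * g⁻¹ := by
      calc g * (t * b) * g⁻¹ = g * t * g⁻¹ * (g * b * g⁻¹) := by group
        _ = g * b * g⁻¹ * (g * t * g⁻¹) := h1
        _ = g * (b * t) * g⁻¹ := by group
    have := mul_left_cancel (mul_right_cancel h2)
    exact this

/-- The Sylow 2-subgroups are dihedral of order 8. -/
theorem T_dihedral (T : Sylow 2 G) : Nonempty (↥(T : Subgroup G) ≃* DihedralGroup 4) := by
  obtain ⟨a, ha, h4⟩ := exists_order_four h T
  obtain ⟨b, hb, hbb, hb1, t, ht, htb⟩ := exists_noncentral_involution h T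
  have hbz : b ∉ Subgroup.zpowers a := by
    intro hmem
    rcases mem_zpowers_four h4 hmem with h1 | h1 | h1 | h1
    · exact hb1 h1
    · subst h1
      exact sq_ne_one_of_four h4 hbb
    · subst h1
      exact htb (sq_central h T ha h4 ht)
    · subst h1
      apply sq_ne_one_of_four h4
      have : a⁻¹ * a⁻¹ = (a * a)⁻¹ := by group
      rw [this] at hbb
      exact inv_eq_one.mp hbb
  have hinv := inv_of_not_mem h T ha h4 hb hbz
  apply Cfsg.Agent.Lib.TwoGroups.Present.nonempty_dihedral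
    (a := (⟨a, ha⟩ : ↥(T : Subgroup G))) (b := (⟨b, hb⟩ : ↥(T : Subgroup G))) (m := 4)
  · rw [Subgroup.orderOf_mk, h4]
  · exact Subtype.ext hbb
  · exact Subtype.ext hinv
  · intro hmem
    apply hbz
    obtain ⟨k, hk⟩ := Subgroup.mem_zpowers_iff.mp hmem
    have := congrArg Subtype.val hk
    rw [Subgroup.mem_zpowers_iff]
    exact ⟨k, by simpa using this⟩
  · rw [card_T h T]

end Cfsg.Agent.Lib.SmallSimple.G168c
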