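import Cfsg.Agent.Lib.TwoFusion.Dih

/-!
The Klein four-subgroups of the dihedral group of order 8.
-/

set_option autoImplicit false

namespace Cfsg.Agent.Lib.SmallSimple.KleinD4

open DihedralGroup Cfsg.Agent.Lib.TwoFusion.Dih

/-- The subgroup `{1, r 2, sr j, sr (j + 2)}`. -/
def kleinD (j : ZMod 4) : Subgroup (DihedralGroup 4) where
  carrier := {x | x = 1 ∨ x = r 2 ∨ x = sr j ∨ x = sr (j + 2)}
  one_mem' := Or.inl rfl
  mul_mem' := by
    intro a b ha hb
    revert j a b
    decide
  inv_mem' := by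
    intro a ha
    revert j a
    decide

theorem mem_kleinD {j : ZMod 4} {x : DihedralGroup 4} :
    x ∈ kleinD j ↔ x = 1 ∨ x = r 2 ∨ x = sr j ∨ x = sr (j + 2) := Iff.rfl

theorem card_kleinD (j : ZMod 4) : Nat.card (kleinD j) = 4 := by
  have h1 : (kleinD j : Set (DihedralGroup 4)) =
      (({1, r 2, sr j, sr (j + 2)} : Finset (DihedralGroup 4)) : Set (DihedralGroup 4)) := by
    ext x
    simp [mem_kleinD]
  have h2 : Nat.card (kleinD j) = Nat.card (kleinD j : Set (DihedralGroup 4)) := rfl
  rw [h2, h1, Nat.card_coe_set_eq, Set.ncard_coe_finset]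
  clear h1 h2
  revert j
  decide

theorem isKleinFour_kleinD (j : ZMod 4) : IsKleinFour (kleinD j) := by
  apply isKleinFour_of_card_of_sq (card_kleinD j)
  rintro ⟨x, hx⟩
  apply Subtype.ext
  show x ^ 2 = 1
  rw [mem_kleinD] at hx
  revert j x
  decide

theorem kleinD_eq (j : ZMod 4) : kleinD j = kleinD 0 ∨ kleinD j = kleinD 1 := by
  have h02 : kleinD 2 = kleinD 0 := by
    ext x
    rw [mem_kleinD, mem_kleinD]
    revert x
    decide
  have h13 : kleinD 3 = kleinD 1 := by
    ext x
    rw [mem_kleinD, mem_kleinD]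
    revert x
    decide
  revert j
  intro j
  fin_cases j
  · exact Or.inl rfl
  · exact Or.inr rfl
  · exact Or.inl h02
  · exact Or.inr h13

theorem kleinD_ne : kleinD 0 ≠ kleinD 1 := by
  intro h
  have h1 : (sr 0 : DihedralGroup 4) ∈ kleinD 0 := Or.inr (Or.inr (Or.inl rfl))
  rw [h, mem_kleinD] at h1
  revert h1
  decide

/-- Every Klein four-subgroup is one of the two subgroups. -/
theorem klein_eq (U : Subgroup (DihedralGroup 4)) (hU : IsKleinFour U) :
    U = kleinD 0 ∨ U = kleinD 1 := by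
  obtain ⟨i, hi0, hi2, j, hj, hi⟩ := exists_r_of_klein U hU
  have hi' : i = 2 := by
    clear hi
    revert i
    decide
  subst hi'
  have hle : kleinD j ≤ U := by
    intro x hx
    rcases hx with rfl | rfl | rfl | rfl
    · exact U.one_mem
    · exact hi
    · exact hj
    · have := U.mul_mem hj hi
      simpa using this
  have heq : kleinD j = U := by
    apply Subgroup.eq_of_le_of_card_ge hle
    rw [hU.card_four, card_kleinD]
  rw [← heq]
  exact kleinD_eq j

/-- Exactly two Klein four-subgroups. -/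
theorem card_klein : Nat.card {U : Subgroup (DihedralGroup 4) // IsKleinFour U} = 2 := by
  rw [Nat.card_eq_two_iff]
  refine ⟨⟨kleinD 0, isKleinFour_kleinD 0⟩, ⟨kleinD 1, isKleinFour_kleinD 1⟩, ?_, ?_⟩
  · intro h
    exact kleinD_ne (congrArg Subtype.val h)
  · ext ⟨U, hU⟩
    simp only [Set.mem_insert_iff, Set.mem_singleton_iff, Set.mem_univ, iff_true, Subtype.mk.injEq]
    exact klein_eq U hU

/-- A Klein four-subgroup contains a non-central element. -/
theorem exists_noncentral (U : Subgroup (DihedralGroup 4)) (hU : IsKleinFour U) :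
    ∃ u ∈ U, ∃ t : DihedralGroup 4, t * u ≠ u * t := by
  obtain ⟨j, hj⟩ := exists_sr_of_klein U hU
  refine ⟨_, hj, r 1, ?_⟩
  clear hj
  revert j
  decide

end Cfsg.Agent.Lib.SmallSimple.KleinD4
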