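import Cfsg.Agent.Lib.SmallSimple.G168c
import Cfsg.Agent.Lib.SmallSimple.KleinD4
import Cfsg.Agent.S1012

/-!
A simple group of order 168: Klein four-subgroups and their normalizers.
-/

set_option autoImplicit false

namespace Cfsg.Agent.Lib.SmallSimple.G168d

open Cfsg.Agent.Lib.Small.Basic Cfsg.Agent.Lib.Small.Sieve Cfsg.Agent.Lib.SmallSimple.Count
  Cfsg.Agent.Lib.SmallSimple.Sign Cfsg.Agent.Lib.SmallSimple.Inter Cfsg.Agent.Lib.SmallSimple.G168
  Cfsg.Agent.Lib.SmallSimple.G168b Cfsg.Agent.Lib.SmallSimple.G168c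
  Cfsg.Agent.Lib.SmallSimple.KleinD4 Cfsg.Agent.Lib.TwoFusion.Dih MulAction

variable {G : Type*} [Group G] [Finite G]

/-- A subgroup of index two in `T` is normalized by `T`. -/
theorem le_normalizer_of_index_two {T U : Subgroup G} (hU : U ≤ T)
    (hcard : Nat.card T = 2 * Nat.card U) : T ≤ Subgroup.normalizer (U : Set G) := by
  have h1 := (U.subgroupOf T).card_mul_index
  have h2 : Nat.card (U.subgroupOf T) = Nat.card U := by
    rw [card_subgroupOf, inf_eq_left.mpr hU]
  rw [h2, hcard] at h1
  have hpos : 0 < Nat.card U := Nat.card_pos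
  have h3 : (U.subgroupOf T).index = 2 := by
    apply Nat.eq_of_mul_eq_mul_left hpos
    rw [h1]
    ring
  have h4 := Subgroup.normal_of_index_eq_two h3
  exact (Subgroup.normal_subgroupOf_iff_le_normalizer hU).mp h4

/-- Two Sylow subgroups in `N` are conjugate in `N`. -/
theorem exists_mul_mem_normalizer {p : ℕ} [Fact p.Prime] (P : Sylow p G) (N : Subgroup G) (g : G)
    (h1 : (P : Subgroup G) ≤ N) (h2 : ((g • P : Sylow p G) : Subgroup G) ≤ N) :
    ∃ n ∈ N, n * g ∈ Subgroup.normalizer ((P : Subgroup G) : Set G) := by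
  obtain ⟨n, hn⟩ := MulAction.exists_smul_eq N ((g • P).subtype h2) (P.subtype h1)
  simp_rw [Sylow.smul_subtype, Subgroup.smul_def, smul_smul] at hn
  exact ⟨n, n.2, Sylow.smul_eq_iff_mem_normalizer.mp (Sylow.subtype_injective hn)⟩

omit [Finite G] in
theorem map_conj_mul (U : Subgroup G) (n g : G) :
    U.map (MulAut.conj (n * g)).toMonoidHom =
      (U.map (MulAut.conj g).toMonoidHom).map (MulAut.conj n).toMonoidHom := by
  rw [Subgroup.map_map]
  congr 1
  ext x
  show (n * g) * x * (n * g)⁻¹ = n * (g * x * g⁻¹) * n⁻¹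
  group

omit [Finite G] in
theorem normalizer_map_conj (U : Subgroup G) (g : G) :
    Subgroup.normalizer ((U.map (MulAut.conj g).toMonoidHom : Subgroup G) : Set G) =
      (Subgroup.normalizer (U : Set G)).map (MulAut.conj g).toMonoidHom :=
  (Subgroup.map_normalizer_eq_of_bijective U (MulAut.conj g).bijective).symm

omit [Finite G] in
/-- A normal subgroup of a subgroup `M` is normalized by `M`. -/
theorem le_normalizer_map_subtype {M : Subgroup G} (V : Subgroup M) (hV : V.Normal) :
    M ≤ Subgroup.normalizer ((V.map M.subtype : Subgroup G) : Set G) := by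
  have h1 := Subgroup.le_normalizer_map (H := V) M.subtype
  rw [Subgroup.normalizer_eq_top_iff.mpr hV, ← MonoidHom.range_eq_map, Subgroup.range_subtype] at h1
  exact h1

omit [Finite G] in
/-- A `p`-subgroup normalized by a Sylow subgroup lies in it. -/
theorem le_sylow_of_le_normalizer {p : ℕ} [Fact p.Prime] (T : Sylow p G) {V : Subgroup G}
    (hV : IsPGroup p V) (hT : (T : Subgroup G) ≤ Subgroup.normalizer (V : Set G)) :
    V ≤ (T : Subgroup G) := by
  have h1 := IsPGroup.to_sup_of_normal_right' T.isPGroup' hV hT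
  have h2 := T.is_maximal' h1 le_sup_left
  rw [← h2]
  exact le_sup_right

omit [Finite G] in
/-- Klein four-subgroups are 2-groups. -/
theorem isPGroup_klein {U : Subgroup G} (hK : IsKleinFour U) : IsPGroup 2 U :=
  IsPGroup.of_card (n := 2) (by rw [hK.card_four]; norm_num)

omit [Finite G] in
theorem isKleinFour_comap {H : Type*} [Group H] (f : H →* G) (hf : Function.Injective f)
    {U : Subgroup G} (hle : U ≤ f.range) (hK : IsKleinFour U) : IsKleinFour (U.comap f) := by
  apply isKleinFour_of_card_of_sq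
  · have h1 : (U.comap f).map f = U := Subgroup.map_comap_eq_self hle
    rw [← Subgroup.card_map_of_injective hf, h1]
    exact hK.card_four
  · rintro ⟨x, hx⟩
    apply Subtype.ext
    apply hf
    have h2 := IsKleinFour.mul_self (⟨f x, hx⟩ : U)
    have h3 : f x * f x = 1 := congrArg Subtype.val h2
    show f (x ^ 2) = f 1
    rw [map_pow, pow_two, h3, map_one]

section Simple

variable [IsSimpleGroup G] (h : Nat.card G = 168)

include h

/-- `T` normalizes every Klein four-subgroup it contains. -/
theorem klein_le_normalizer (T : Sylow 2 G) {U : Subgroup G} (hU : U ≤ T) (hK : IsKleinFour U) :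
    (T : Subgroup G) ≤ Subgroup.normalizer (U : Set G) :=
  le_normalizer_of_index_two hU (by rw [card_T h T, hK.card_four])

/-- `T` is the isomorphic image of the dihedral group. -/
theorem exists_embedding (T : Sylow 2 G) :
    ∃ f : DihedralGroup 4 →* G, Function.Injective f ∧ f.range = T := by
  obtain ⟨φ⟩ := T_dihedral h T
  refine ⟨(T : Subgroup G).subtype.comp φ.symm.toMonoidHom, ?_, ?_⟩
  · exact (Subgroup.subtype_injective _).comp φ.symm.injective
  · ext x
    constructor
    · rintro ⟨y, rfl⟩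
      exact (φ.symm y).2
    · intro hx
      exact ⟨φ ⟨x, hx⟩, by simp⟩

/-- The two Klein four-subgroups of `T`. -/
theorem exists_two_klein (T : Sylow 2 G) : ∃ U₁ U₂ : Subgroup G, U₁ ≠ U₂ ∧
    U₁ ≤ (T : Subgroup G) ∧ U₂ ≤ (T : Subgroup G) ∧ IsKleinFour U₁ ∧ IsKleinFour U₂ ∧
    ∀ U : Subgroup G, U ≤ (T : Subgroup G) → IsKleinFour U → U = U₁ ∨ U = U₂ := by
  obtain ⟨f, hf, hr⟩ := exists_embedding h T
  refine ⟨(kleinD 0).map f, (kleinD 1).map f, ?_, ?_, ?_, ?_, ?_, ?_⟩
  · intro h1
    exact kleinD_ne (Subgroup.map_injective hf h1)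
  · rw [← hr]; exact Subgroup.map_le_range f _
  · rw [← hr]; exact Subgroup.map_le_range f _
  · exact isKleinFour_map (isKleinFour_kleinD 0) f hf
  · exact isKleinFour_map (isKleinFour_kleinD 1) f hf
  · intro U hU hK
    have hle : U ≤ f.range := by rw [hr]; exact hU
    have h1 : (U.comap f).map f = U := Subgroup.map_comap_eq_self hle
    rcases klein_eq (U.comap f) (isKleinFour_comap f hf hle hK) with h2 | h2
    · left; rw [← h1, h2]
    · right; rw [← h1, h2]

/-- Exactly two Klein four-subgroups in `T`. -/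
theorem card_klein_in_T (T : Sylow 2 G) :
    Nat.card {U : Subgroup G // U ≤ (T : Subgroup G) ∧ IsKleinFour ↥U} = 2 := by
  obtain ⟨U₁, U₂, hne, h1, h2, k1, k2, hall⟩ := exists_two_klein h T
  rw [Nat.card_eq_two_iff]
  refine ⟨⟨U₁, h1, k1⟩, ⟨U₂, h2, k2⟩, ?_, ?_⟩
  · intro hc
    exact hne (congrArg Subtype.val hc)
  · ext ⟨U, hU, hK⟩
    simp only [Set.mem_insert_iff, Set.mem_singleton_iff, Set.mem_univ, iff_true, Subtype.mk.injEq]
    exact hall U hU hK

/-- A Klein four-subgroup of `T` contains a non-central element of `T`. -/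
theorem exists_noncentral_klein (T : Sylow 2 G) {U : Subgroup G} (hU : U ≤ (T : Subgroup G))
    (hK : IsKleinFour U) : ∃ u ∈ U, ∃ t ∈ (T : Subgroup G), t * u ≠ u * t := by
  obtain ⟨f, hf, hr⟩ := exists_embedding h T
  have hle : U ≤ f.range := by rw [hr]; exact hU
  obtain ⟨u, hu, t, ht⟩ := exists_noncentral (U.comap f) (isKleinFour_comap f hf hle hK)
  refine ⟨f u, hu, f t, ?_, ?_⟩
  · rw [← hr]; exact ⟨t, rfl⟩
  · intro hc
    apply ht
    apply hf
    rw [map_mul, map_mul, hc]

/-- The centralizer of an involution has order 8. -/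
theorem card_centralizer_involution {u : G} (hu : orderOf u = 2) :
    Nat.card (Subgroup.centralizer ({u} : Set G)) = 8 := by
  have h1 := card_conj_mul_card_centralizer u
  have h2 : Nat.card {g : G // IsConj u g} = Nat.card {g : G // orderOf g = 2} := by
    apply Nat.card_congr
    apply Equiv.subtypeEquivRight
    intro g
    constructor
    · intro hc
      rw [class_subset ⟨g, hc⟩, hu]
    · intro hg
      exact conj_order2 h u g hu hg
  rw [h2, card_order2 h, h] at h1
  omega

/-- The centralizer of an involution is a Sylow 2-subgroup. -/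
theorem exists_sylow_eq_centralizer {u : G} (hu : orderOf u = 2) :
    ∃ T : Sylow 2 G, Subgroup.centralizer ({u} : Set G) = T := by
  have h8 := card_centralizer_involution h hu
  have hp : IsPGroup 2 (Subgroup.centralizer ({u} : Set G)) :=
    IsPGroup.of_card (n := 3) (by rw [h8]; norm_num)
  obtain ⟨T, hT⟩ := hp.exists_le_sylow
  refine ⟨T, Subgroup.eq_of_le_of_card_ge hT ?_⟩
  rw [h8, card_T h T]

/-- Every Klein four-subgroup lies in two different Sylow subgroups. -/
theorem klein_two_sylow {U : Subgroup G} (hK : IsKleinFour U) :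
    ∃ T T' : Sylow 2 G, T ≠ T' ∧ U ≤ (T : Subgroup G) ∧ U ≤ (T' : Subgroup G) := by
  obtain ⟨T, hT⟩ := (isPGroup_klein hK).exists_le_sylow
  obtain ⟨u, hu, t, ht, htu⟩ := exists_noncentral_klein h T hT hK
  have hu1 : u ≠ 1 := by
    rintro rfl
    simp at htu
  have huu : u ^ 2 = 1 := by
    have h2 := IsKleinFour.mul_self (⟨u, hu⟩ : U)
    have h3 : u * u = 1 := congrArg Subtype.val h2
    rw [pow_two, h3]
  have hu2 : orderOf u = 2 := orderOf_eq_prime huu hu1
  obtain ⟨T', hT'⟩ := exists_sylow_eq_centralizer h hu2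
  refine ⟨T, T', ?_, hT, ?_⟩
  · rintro rfl
    have h1 : t ∈ Subgroup.centralizer ({u} : Set G) := by
      rw [hT']
      exact ht
    rw [Subgroup.mem_centralizer_iff] at h1
    exact htu (h1 u rfl).symm
  · rw [← hT']
    intro x hx
    rw [Subgroup.mem_centralizer_iff]
    rintro y rfl
    have := (IsKleinFour.isMulCommutative (G := U)).is_comm.comm ⟨y, hu⟩ ⟨x, hx⟩
    exact congrArg Subtype.val this

omit [Finite G] in
theorem normalizer_klein_ne_top {U : Subgroup G} (hK : IsKleinFour U) :
    Subgroup.normalizer (U : Set G) ≠ ⊤ := by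
  intro h1
  have hn : U.Normal := Subgroup.normalizer_eq_top_iff.mp h1
  have h4 := hK.card_four
  rcases hn.eq_bot_or_eq_top with h2 | h2
  · rw [h2] at h4
    simp at h4
  · rw [h2, Subgroup.card_top, h] at h4
    omega

/-- The normalizer of a Klein four-subgroup has order 24. -/
theorem card_normalizer_klein {U : Subgroup G} (hK : IsKleinFour U) :
    Nat.card (Subgroup.normalizer (U : Set G)) = 24 := by
  obtain ⟨T, T', hne, hT, hT'⟩ := klein_two_sylow h hK
  have hTN := klein_le_normalizer h T hT hK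
  have hTN' := klein_le_normalizer h T' hT' hK
  set N := Subgroup.normalizer (U : Set G) with hN
  have hNtop : N ≠ ⊤ := normalizer_klein_ne_top h hK
  have h8 : 8 ∣ Nat.card N := by
    have := Subgroup.card_dvd_of_le hTN
    rwa [card_T h T] at this
  have hidx := N.card_mul_index
  rw [h] at hidx
  have hfac := two_mul_card_dvd_factorial_index (not_comm h) N hNtop
  rw [h] at hfac
  obtain ⟨k, hk⟩ := h8
  rw [hk] at hidx ⊢
  have hk1 : k ∣ 21 := by
    have h3 : 8 * (k * N.index) = 8 * 21 := by rw [← mul_assoc, hidx]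
    exact ⟨N.index, (Nat.eq_of_mul_eq_mul_left (by norm_num) h3).symm⟩
  have hk3 : k = 1 ∨ k = 3 ∨ k = 7 ∨ k = 21 := by
    have h21 : Nat.divisors 21 = {1, 3, 7, 21} := by decide +kernel
    have : k ∈ Nat.divisors 21 := Nat.mem_divisors.mpr ⟨hk1, by norm_num⟩
    simpa [h21] using this
  rcases hk3 with rfl | rfl | rfl | rfl
  · exfalso
    apply hne
    have h1 : (T : Subgroup G) = N := Subgroup.eq_of_le_of_card_ge hTN (by rw [hk, card_T h T])
    have h2 : (T' : Subgroup G) = N := Subgroup.eq_of_le_of_card_ge hTN' (by rw [hk, card_T h T'])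
    exact Sylow.ext (h1.trans h2.symm)
  · rfl
  · exfalso
    have h3 : N.index = 3 := by omega
    rw [h3] at hfac
    revert hfac
    decide
  · exfalso
    have h3 : N.index = 1 := by omega
    exact hNtop (Subgroup.index_eq_one.mp h3)

/-- The normalizer of a Klein four-subgroup is isomorphic to the symmetric group of degree 4. -/
theorem normalizer_klein_iso {U : Subgroup G} (hK : IsKleinFour U) :
    Nonempty (↥(Subgroup.normalizer (U : Set G)) ≃* Equiv.Perm (Fin 4)) := by
  apply Cfsg.Agent.S1012.result (card_normalizer_klein h hK)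
  intro g hg
  rw [Subgroup.orderOf_coe g |>.symm] at hg
  rcases orderOf_mem h (g : G) with h1 | h1 | h1 | h1 | h1 <;> omega

/-- Non-conjugacy of the two Klein four-subgroups of `T`. -/
theorem klein_not_conj (T : Sylow 2 G) {U W : Subgroup G} (hU : U ≤ (T : Subgroup G))
    (hW : W ≤ (T : Subgroup G)) (hKU : IsKleinFour U) (hKW : IsKleinFour W) (hne : U ≠ W) (g : G) :
    U.map (MulAut.conj g).toMonoidHom ≠ W := by
  intro hc
  have hWg : W ≤ ((g • T : Sylow 2 G) : Subgroup G) := by
    rw [← hc, Sylow.coe_subgroup_smul]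
    rintro _ ⟨u, hu, rfl⟩
    exact ⟨u, hU hu, rfl⟩
  have h1 := klein_le_normalizer h T hW hKW
  have h2 := klein_le_normalizer h (g • T) hWg hKW
  obtain ⟨n, hn, hng⟩ := exists_mul_mem_normalizer T _ g h1 h2
  rw [normalizer_T h T] at hng
  have h3 := klein_le_normalizer h T hU hKU hng
  rw [Subgroup.mem_normalizer_iff_map_conj_eq] at h3 hn
  have h4 : U.map (MulAut.conj (n * g)).toMonoidHom = U := h3
  have h5 : W.map (MulAut.conj n).toMonoidHom = W := hn
  rw [map_conj_mul, hc, h5] at h4
  exact hne h4.symm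

/-- A Klein four-subgroup is determined by its normalizer. -/
theorem klein_eq_of_normalizer_eq {U V : Subgroup G} (hU : IsKleinFour U) (hV : IsKleinFour V)
    (heq : Subgroup.normalizer (U : Set G) = Subgroup.normalizer (V : Set G)) : U = V := by
  obtain ⟨T, T', hne, hT, hT'⟩ := klein_two_sylow h hU
  have hTN := klein_le_normalizer h T hT hU
  have hTN' := klein_le_normalizer h T' hT' hU
  rw [heq] at hTN hTN'
  have h1 := le_sylow_of_le_normalizer T (isPGroup_klein hV) hTN
  have h2 := le_sylow_of_le_normalizer T' (isPGroup_klein hV) hTN'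
  have h3 := card_inf_le_of_ne hne (k := 3) (by rw [card_T h T]; norm_num)
  have hUle : U ≤ (T : Subgroup G) ⊓ (T' : Subgroup G) := le_inf hT hT'
  have hVle : V ≤ (T : Subgroup G) ⊓ (T' : Subgroup G) := le_inf h1 h2
  have hUeq : U = (T : Subgroup G) ⊓ (T' : Subgroup G) := Subgroup.eq_of_le_of_card_ge hUle (by
    rw [hU.card_four]; simpa using h3)
  have hVeq : V = (T : Subgroup G) ⊓ (T' : Subgroup G) := Subgroup.eq_of_le_of_card_ge hVle (by
    rw [hV.card_four]; simpa using h3)
  rw [hUeq, hVeq]

end Simple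

end Cfsg.Agent.Lib.SmallSimple.G168d
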