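import Cfsg.Agent.Lib.SmallSimple.G168d

/-!
A simple group of order 168: its maximal subgroups.
-/

set_option autoImplicit false

namespace Cfsg.Agent.Lib.SmallSimple.G168e

open Cfsg.Agent.Lib.Small.Basic Cfsg.Agent.Lib.Small.Sieve Cfsg.Agent.Lib.SmallSimple.Count
  Cfsg.Agent.Lib.SmallSimple.Sign Cfsg.Agent.Lib.SmallSimple.Inter Cfsg.Agent.Lib.SmallSimple.G168
  Cfsg.Agent.Lib.SmallSimple.G168b Cfsg.Agent.Lib.SmallSimple.G168c
  Cfsg.Agent.Lib.SmallSimple.G168d
  Cfsg.Agent.Lib.SmallSimple.KleinD4 Cfsg.Agent.Lib.TwoFusion.Dih MulAction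

section General

/-- In a group of order `p * m` with `m ≤ p`, `p ∤ m`, a Sylow `p`-subgroup is normal. -/
theorem normal_sylow_of_card {M : Type*} [Group M] [Finite M] {p m : ℕ} [hp : Fact p.Prime]
    (hM : Nat.card M = p * m) (hm : m ≤ p) (hpm : ¬ p ∣ m) (P : Sylow p M) :
    (P : Subgroup M).Normal := by
  have hM' : Nat.card M = p ^ 1 * m := by rw [hM, pow_one]
  have hidx : (P : Subgroup M).index = m := index_sylow_eq hM' hpm P
  have hdvd : Nat.card (Sylow p M) ∣ m := by rw [← hidx]; exact P.card_dvd_index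
  have hmod : Nat.card (Sylow p M) ≡ 1 [MOD p] := card_sylow_modEq_one p M
  have hm0 : 0 < m := by
    rcases Nat.eq_zero_or_pos m with h0 | h0
    · subst h0
      exact absurd (dvd_zero p) hpm
    · exact h0
  have hle := Nat.le_of_dvd hm0 hdvd
  have hone : Nat.card (Sylow p M) = 1 := by
    have hp1 : 1 < p := hp.out.one_lt
    have h1 : 1 ≤ Nat.card (Sylow p M) := Nat.card_pos
    by_contra hne
    have h2 : (1 : ℕ) % p = 1 := Nat.mod_eq_of_lt hp1
    have h3 : Nat.card (Sylow p M) % p = 1 := by rw [hmod, h2]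
    have h4 : Nat.card (Sylow p M) = p ∨ Nat.card (Sylow p M) < p := by omega
    rcases h4 with h4 | h4
    · rw [h4, Nat.mod_self] at h3
      omega
    · rw [Nat.mod_eq_of_lt h4] at h3
      exact hne h3
  have hsub : Subsingleton (Sylow p M) := (Nat.card_eq_one_iff_unique.mp hone).1
  exact Sylow.normal_of_subsingleton P

/-- A group of order 12 has a normal subgroup of order 3 or a normal subgroup of order 4. -/
theorem order12_normal {M : Type*} [Group M] [Finite M] (hM : Nat.card M = 12) :
    (∃ Q : Subgroup M, Nat.card Q = 3 ∧ Q.Normal) ∨ (∃ V : Subgroup M, Nat.card V = 4 ∧ V.Normal) := by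
  classical
  have h3f : Fact (Nat.Prime 3) := ⟨by norm_num⟩
  have h2f : Fact (Nat.Prime 2) := ⟨Nat.prime_two⟩
  have hM3 : Nat.card M = 3 ^ 1 * 4 := by rw [hM]; norm_num
  have hM2 : Nat.card M = 2 ^ 2 * 3 := by rw [hM]; norm_num
  obtain ⟨P⟩ : Nonempty (Sylow 3 M) := inferInstance
  obtain ⟨V⟩ : Nonempty (Sylow 2 M) := inferInstance
  have hcardP : Nat.card (P : Subgroup M) = 3 := by
    simpa using card_sylow_eq hM3 (by norm_num) P
  have hcardV : Nat.card (V : Subgroup M) = 4 := by
    simpa using card_sylow_eq hM2 (by norm_num) V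
  have hidx : (P : Subgroup M).index = 4 := index_sylow_eq hM3 (by norm_num) P
  have hn : Nat.card (Sylow 3 M) ∣ 4 := by rw [← hidx]; exact P.card_dvd_index
  have hmod : Nat.card (Sylow 3 M) % 3 = 1 := card_sylow_modEq_one 3 M
  have hle := Nat.le_of_dvd (by norm_num) hn
  have h14 : Nat.card (Sylow 3 M) = 1 ∨ Nat.card (Sylow 3 M) = 4 := by
    have hpos : 0 < Nat.card (Sylow 3 M) := Nat.card_pos
    omega
  rcases h14 with h1 | h4
  · left
    have hsub : Subsingleton (Sylow 3 M) := (Nat.card_eq_one_iff_unique.mp h1).1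
    exact ⟨P, hcardP, Sylow.normal_of_subsingleton P⟩
  · right
    refine ⟨V, hcardV, ?_⟩
    have h8 := card_orderOf_eq_of_card_sylow P hcardP
    rw [h4] at h8
    -- The complement
    have hsum : Nat.card {g : M // orderOf g = 3} + Nat.card {g : M // ¬ orderOf g = 3} = 12 := by
      rw [← hM, ← Nat.card_sum]
      exact Nat.card_congr (Equiv.sumCompl _)
    have h4' : Nat.card {g : M // ¬ orderOf g = 3} = 4 := by omega
    have hVsub : ((V : Subgroup M) : Set M) ⊆ {g : M | ¬ orderOf g = 3} := by
      intro v hv h3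
      have h5 : orderOf (⟨v, hv⟩ : ↥(V : Subgroup M)) ∣ 4 := by
        rw [← hcardV]
        exact orderOf_dvd_natCard _
      rw [Subgroup.orderOf_mk, h3] at h5
      omega
    have hVeq : ((V : Subgroup M) : Set M) = {g : M | ¬ orderOf g = 3} := by
      apply Set.eq_of_subset_of_ncard_le hVsub
      rw [← Nat.card_coe_set_eq, ← Nat.card_coe_set_eq]
      have h6 : Nat.card ↑((V : Subgroup M) : Set M) = 4 := hcardV
      rw [h6]
      have h7 : Nat.card ↑({g : M | ¬ orderOf g = 3}) = 4 := h4'
      rw [h7]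
    constructor
    intro n hn g
    have hn' : n ∈ ((V : Subgroup M) : Set M) := hn
    rw [hVeq] at hn'
    have hg : g * n * g⁻¹ ∈ ((V : Subgroup M) : Set M) := by
      rw [hVeq]
      show ¬ orderOf (g * n * g⁻¹) = 3
      have h9 : orderOf (g * n * g⁻¹) = orderOf n := (MulAut.conj g).orderOf_eq n
      rw [h9]
      exact hn'
    exact hg

variable {G : Type*} [Group G] [Finite G]

omit [Finite G] in
/-- The conjugate of a Sylow subgroup as an image. -/
theorem coe_smul_eq_map {p : ℕ} (g : G) (P : Sylow p G) :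
    ((g • P : Sylow p G) : Subgroup G) = (P : Subgroup G).map (MulAut.conj g).toMonoidHom := by
  rw [Sylow.coe_subgroup_smul]
  rfl

/-- A subgroup of `M` of order `p` gives a Sylow subgroup of `G` when Sylow subgroups have order `p`. -/
theorem exists_sylow_of_map {M : Subgroup G} {p : ℕ} [Fact p.Prime]
    (hS : ∀ Q : Sylow p G, Nat.card (Q : Subgroup G) = p) (Q₀ : Subgroup M)
    (hQ₀ : Nat.card Q₀ = p) : ∃ Q : Sylow p G, (Q : Subgroup G) = Q₀.map M.subtype := by
  have hcard : Nat.card (Q₀.map M.subtype) = p := by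
    rw [Subgroup.card_map_of_injective M.subtype_injective, hQ₀]
  have hp : IsPGroup p (Q₀.map M.subtype) := IsPGroup.of_card (n := 1) (by rw [hcard, pow_one])
  obtain ⟨Q, hQ⟩ := hp.exists_le_sylow
  exact ⟨Q, (Subgroup.eq_of_le_of_card_ge hQ (by rw [hcard, hS Q])).symm⟩

omit [Finite G] in
theorem coatom_eq_of_le_ne_top {M K : Subgroup G} (hM : IsCoatom M) (hle : M ≤ K) (hK : K ≠ ⊤) :
    M = K := by
  rcases eq_or_lt_of_le hle with h1 | h1
  · exact h1
  · exact absurd (hM.2 K h1) hK

end General

section Simple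

variable {G : Type*} [Group G] [Finite G] [IsSimpleGroup G] (h : Nat.card G = 168)

include h

/-- A coatom below the normalizer of a Klein four-subgroup is that normalizer. -/
theorem card_of_le_normalizer_klein {M : Subgroup G} (hM : IsCoatom M) {U : Subgroup G}
    (hK : IsKleinFour U) (hle : M ≤ Subgroup.normalizer (U : Set G)) : Nat.card M = 24 := by
  rw [coatom_eq_of_le_ne_top hM hle (normalizer_klein_ne_top h hK), card_normalizer_klein h hK]

/-- Existence of a Klein four-subgroup in a given Sylow subgroup. -/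
theorem exists_klein_le (T : Sylow 2 G) : ∃ U : Subgroup G, IsKleinFour U ∧
    (T : Subgroup G) ≤ Subgroup.normalizer (U : Set G) := by
  obtain ⟨U₁, U₂, -, h1, -, k1, -, -⟩ := exists_two_klein h T
  exact ⟨U₁, k1, klein_le_normalizer h T h1 k1⟩

/-- Each Sylow 3-subgroup normalizes a Klein four-subgroup. -/
theorem sylow3_le_normalizer_klein (Q : Sylow 3 G) : ∃ U : Subgroup G, IsKleinFour U ∧
    (Q : Subgroup G) ≤ Subgroup.normalizer (U : Set G) := by
  obtain ⟨T⟩ : Nonempty (Sylow 2 G) := inferInstance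
  obtain ⟨U₀, k0, -⟩ := exists_klein_le h T
  obtain ⟨x, hx⟩ := exists_prime_orderOf_dvd_card' (G := Subgroup.normalizer (U₀ : Set G)) 3
    (by rw [card_normalizer_klein h k0]; norm_num)
  have hx' : orderOf (x : G) = 3 := by rw [Subgroup.orderOf_coe]; exact hx
  obtain ⟨Q₀, hQ₀⟩ := exists_sylow_eq_zpowers (card_P3 h) (x : G) hx'
  have hle : (Q₀ : Subgroup G) ≤ Subgroup.normalizer (U₀ : Set G) := by
    rw [hQ₀, Subgroup.zpowers_le]
    exact x.2
  obtain ⟨g, rfl⟩ := MulAction.exists_smul_eq G Q₀ Q
  refine ⟨U₀.map (MulAut.conj g).toMonoidHom,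
    isKleinFour_map k0 _ (MulAut.conj g).injective, ?_⟩
  rw [normalizer_map_conj, coe_smul_eq_map]
  exact Subgroup.map_mono hle

/-- The normalizer of a Sylow 3-subgroup normalizes a Klein four-subgroup. -/
theorem normalizer3_le_normalizer_klein (Q : Sylow 3 G) {U : Subgroup G} (hK : IsKleinFour U)
    (hQ : (Q : Subgroup G) ≤ Subgroup.normalizer (U : Set G)) :
    Subgroup.normalizer ((Q : Subgroup G) : Set G) ≤ Subgroup.normalizer (U : Set G) := by
  set L := Subgroup.normalizer (U : Set G) with hL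
  have hL24 : Nat.card L = 24 := card_normalizer_klein h hK
  set Q' : Sylow 3 L := Q.subtype hQ with hQ'
  have h1 := card_sylow_mul_card_normalizer Q'
  rw [hL24] at h1
  have hmod : Nat.card (Sylow 3 L) % 3 = 1 := card_sylow_modEq_one 3 L
  have hmap : Subgroup.map L.subtype (Subgroup.normalizer ((Q' : Subgroup L) : Set L)) ≤
      Subgroup.normalizer ((Q : Subgroup G) : Set G) := by
    have h2 := Subgroup.le_normalizer_map (H := (Q' : Subgroup L)) L.subtype
    have h3 : (Q' : Subgroup L).map L.subtype = (Q : Subgroup G) := by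
      rw [hQ', Sylow.coe_subtype, Subgroup.subgroupOf_map_subtype]
      exact inf_eq_left.mpr hQ
    rw [h3] at h2
    exact h2
  have hcardmap : Nat.card (Subgroup.map L.subtype (Subgroup.normalizer ((Q' : Subgroup L) : Set L)))
      = Nat.card (Subgroup.normalizer ((Q' : Subgroup L) : Set L)) :=
    Subgroup.card_map_of_injective L.subtype_injective
  have hle := Subgroup.card_le_of_le hmap
  rw [hcardmap, card_N3 h Q] at hle
  set c := Nat.card (Subgroup.normalizer ((Q' : Subgroup L) : Set L)) with hc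
  set n := Nat.card (Sylow 3 L) with hn
  have hc6 : c = 6 := by
    have hn4 : n ≤ 24 := by
      by_contra hcon
      have hcpos : 0 < c := Nat.card_pos
      nlinarith
    have hcpos : 0 < c := Nat.card_pos
    interval_cases c <;> omega
  have heq := Subgroup.eq_of_le_of_card_ge hmap (by rw [hcardmap, card_N3 h Q, hc6])
  rw [← heq]
  exact Subgroup.map_subtype_le _

/-- Classification of coatoms. -/
theorem coatom_cases {M : Subgroup G} (hM : IsCoatom M) :
    Nonempty (↥M ≃* Equiv.Perm (Fin 4)) ∨ (Nat.card ↥M = 21 ∧ ¬ IsMulCommutative ↥M) := by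
  have h3f : Fact (Nat.Prime 3) := ⟨by norm_num⟩
  have h7f : Fact (Nat.Prime 7) := ⟨by norm_num⟩
  have hfac := two_mul_card_dvd_factorial_index (not_comm h) M hM.1
  have hidx := M.card_mul_index
  rw [h] at hfac hidx
  have hne24 : Nat.card M ≠ 24 → ∀ U : Subgroup G, IsKleinFour U →
      ¬ M ≤ Subgroup.normalizer (U : Set G) := fun h1 U hK hle =>
    h1 (card_of_le_normalizer_klein h hM hK hle)
  have hdiv : Nat.card M ∈ Nat.divisors 168 := Nat.mem_divisors.mpr ⟨⟨_, hidx.symm⟩, by norm_num⟩
  have hdivs : Nat.divisors 168 = {1, 2, 3, 4, 6, 7, 8, 12, 14, 21, 24, 28, 42, 56, 84, 168} := by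
    decide +kernel
  rw [hdivs] at hdiv
  -- The 2-group case
  have h2case : ∀ n : ℕ, Nat.card M = 2 ^ n → n ≤ 3 →
      Nonempty (↥M ≃* Equiv.Perm (Fin 4)) ∨ (Nat.card ↥M = 21 ∧ ¬ IsMulCommutative ↥M) := by
    intro n hn hn3
    exfalso
    have hp : IsPGroup 2 M := IsPGroup.of_card hn
    obtain ⟨T, hT⟩ := hp.exists_le_sylow
    obtain ⟨U, hK, hU⟩ := exists_klein_le h T
    have h24 : Nat.card M ≠ 24 := by
      rw [hn]
      interval_cases n <;> norm_num
    exact hne24 h24 U hK (hT.trans hU)
  -- the order 3 normal subgroup case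
  have h3case : ∀ (Q₀ : Subgroup M), Nat.card Q₀ = 3 → Q₀.Normal →
      Nat.card M ∣ 6 ∧ Nat.card M ≠ 24 → False := by
    intro Q₀ hQ₀ hn hd
    obtain ⟨Q, hQ⟩ := exists_sylow_of_map (card_P3 h) Q₀ hQ₀
    have hle : M ≤ Subgroup.normalizer ((Q : Subgroup G) : Set G) := by
      rw [hQ]
      exact le_normalizer_map_subtype Q₀ hn
    obtain ⟨U, hK, hU⟩ := sylow3_le_normalizer_klein h Q
    exact hne24 hd.2 U hK (hle.trans (normalizer3_le_normalizer_klein h Q hK hU))
  -- the order 7 normal subgroup case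
  have h7case : ∀ (Q₀ : Subgroup M), Nat.card Q₀ = 7 → Q₀.Normal →
      Nat.card ↥M = 21 ∧ ¬ IsMulCommutative ↥M := by
    intro Q₀ hQ₀ hn
    obtain ⟨Q, hQ⟩ := exists_sylow_of_map (card_P7 h) Q₀ hQ₀
    have hle : M ≤ Subgroup.normalizer ((Q : Subgroup G) : Set G) := by
      rw [hQ]
      exact le_normalizer_map_subtype Q₀ hn
    have hN := card_N7 h Q
    have hNtop : Subgroup.normalizer ((Q : Subgroup G) : Set G) ≠ ⊤ := by
      intro h1
      rw [h1, Subgroup.card_top, h] at hN
      omega
    have hMeq := coatom_eq_of_le_ne_top hM hle hNtop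
    have hM21 : Nat.card M = 21 := by rw [hMeq, hN]
    refine ⟨hM21, ?_⟩
    intro hcomm
    have hQM : (Q : Subgroup G) ≤ M := by
      rw [hQ]
      exact Subgroup.map_subtype_le _
    have hcent : M ≤ Subgroup.centralizer ((Q : Subgroup G) : Set G) := by
      intro x hx
      rw [Subgroup.mem_centralizer_iff]
      intro y hy
      have := hcomm.is_comm.comm ⟨y, hQM hy⟩ ⟨x, hx⟩
      exact congrArg Subtype.val this
    rw [cent_P7 h Q] at hcent
    have := Subgroup.card_le_of_le hcent
    rw [hM21, card_P7 h Q] at this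
    omega
  simp only [Finset.mem_insert, Finset.mem_singleton] at hdiv
  rcases hdiv with h1 | h1 | h1 | h1 | h1 | h1 | h1 | h1 | h1 | h1 | h1 | h1 | h1 | h1 | h1 | h1
  · exact h2case 0 (by rw [h1]; norm_num) (by norm_num)
  · exact h2case 1 (by rw [h1]; norm_num) (by norm_num)
  · -- 3
    exfalso
    obtain ⟨P⟩ : Nonempty (Sylow 3 M) := inferInstance
    have hM3 : Nat.card M = 3 * 1 := by rw [h1]
    have hM3' : Nat.card M = 3 ^ 1 * 1 := by rw [h1]; norm_num
    have hc : Nat.card (P : Subgroup M) = 3 := by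
      simpa using card_sylow_eq hM3' (by norm_num) P
    exact h3case P hc (normal_sylow_of_card hM3 (by norm_num) (by norm_num) P)
      ⟨by rw [h1]; norm_num, by rw [h1]; norm_num⟩
  · exact h2case 2 (by rw [h1]; norm_num) (by norm_num)
  · -- 6
    exfalso
    obtain ⟨P⟩ : Nonempty (Sylow 3 M) := inferInstance
    have hM3 : Nat.card M = 3 * 2 := by rw [h1]
    have hM3' : Nat.card M = 3 ^ 1 * 2 := by rw [h1]; norm_num
    have hc : Nat.card (P : Subgroup M) = 3 := by
      simpa using card_sylow_eq hM3' (by norm_num) P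
    exact h3case P hc (normal_sylow_of_card hM3 (by norm_num) (by norm_num) P)
      ⟨by rw [h1], by rw [h1]; norm_num⟩
  · -- 7
    right
    obtain ⟨P⟩ : Nonempty (Sylow 7 M) := inferInstance
    have hM3 : Nat.card M = 7 * 1 := by rw [h1]
    have hM3' : Nat.card M = 7 ^ 1 * 1 := by rw [h1]; norm_num
    have hc : Nat.card (P : Subgroup M) = 7 := by
      simpa using card_sylow_eq hM3' (by norm_num) P
    exact h7case P hc (normal_sylow_of_card hM3 (by norm_num) (by norm_num) P)
  · exact h2case 3 (by rw [h1]; norm_num) (by norm_num)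
  · -- 12
    exfalso
    rcases order12_normal h1 with ⟨Q₀, hQ₀, hn⟩ | ⟨V, hV, hn⟩
    · obtain ⟨Q, hQ⟩ := exists_sylow_of_map (card_P3 h) Q₀ hQ₀
      have hle : M ≤ Subgroup.normalizer ((Q : Subgroup G) : Set G) := by
        rw [hQ]
        exact le_normalizer_map_subtype Q₀ hn
      have := Subgroup.card_le_of_le hle
      rw [h1, card_N3 h Q] at this
      omega
    · have hle := le_normalizer_map_subtype V hn
      refine hne24 (by rw [h1]; norm_num) (V.map M.subtype) ?_ hle
      have hcardV : Nat.card (V.map M.subtype) = 4 := by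
        rw [Subgroup.card_map_of_injective M.subtype_injective, hV]
      apply isKleinFour_of_card_of_sq hcardV
      obtain ⟨x, hx⟩ := exists_prime_orderOf_dvd_card' (G := M) 3 (by rw [h1]; norm_num)
      have hx' : orderOf (x : G) = 3 := by rw [Subgroup.orderOf_coe]; exact hx
      rintro ⟨c, hc⟩
      apply Subtype.ext
      show c ^ 2 = 1
      have hcV : orderOf c ∣ 4 := by
        rw [← hcardV]
        have := orderOf_dvd_natCard (⟨c, hc⟩ : ↥(V.map M.subtype))
        rwa [Subgroup.orderOf_mk] at this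
      by_cases hc4 : orderOf c = 4
      · exfalso
        have hVz : V.map M.subtype = Subgroup.zpowers c := by
          symm
          apply Subgroup.eq_of_le_of_card_ge
          · rw [Subgroup.zpowers_le]; exact hc
          · rw [hcardV, Nat.card_zpowers, hc4]
        have hy : (x : G) * c * (x : G)⁻¹ ∈ V.map M.subtype := by
          have := (Subgroup.mem_normalizer_iff.mp (hle x.2) c).mp hc
          exact this
        rw [hVz] at hy
        have hord : orderOf ((x : G) * c * (x : G)⁻¹) = 4 := by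
          rw [← hc4]
          exact (MulAut.conj (x : G)).orderOf_eq c
        have hcc : ((x : G) * c * (x : G)⁻¹) * ((x : G) * c * (x : G)⁻¹) = c * c := by
          rcases mem_zpowers_four hc4 hy with h2 | h2 | h2 | h2
          · rw [h2, orderOf_one] at hord
            omega
          · rw [h2]
          · rw [h2] at hord
            have := orderOf_sq_of_four hc4
            omega
          · rw [h2]
            have h5 := sq_sq_eq_one hc4
            have h6 : c⁻¹ * c⁻¹ = (c * c)⁻¹ := by group
            rw [h6]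
            exact inv_eq_of_mul_eq_one_left h5
        apply not_commute_three h (t := c * c) (x := (x : G)) (sq_ne_one_of_four hc4) _ hx'
        · have h7 : (x : G) * (c * c) * (x : G)⁻¹ = c * c := by
            have h9 : (x : G) * (c * c) * (x : G)⁻¹ =
                ((x : G) * c * (x : G)⁻¹) * ((x : G) * c * (x : G)⁻¹) := by group
            rw [h9, hcc]
          calc c * c * (x : G) = ((x : G) * (c * c) * (x : G)⁻¹) * (x : G) := by rw [h7]
            _ = (x : G) * (c * c) := by group
        · have h8 := pow_orderOf_eq_one c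
          rw [hc4] at h8
          calc (c * c) ^ 8 = (c ^ 4) ^ 4 := by
                rw [← pow_two, ← pow_mul, ← pow_mul]
            _ = 1 := by rw [h8, one_pow]
      · have hd : orderOf c = 1 ∨ orderOf c = 2 ∨ orderOf c = 4 := by
          have h41 : Nat.divisors 4 = {1, 2, 4} := by decide +kernel
          have : orderOf c ∈ Nat.divisors 4 := Nat.mem_divisors.mpr ⟨hcV, by norm_num⟩
          simpa [h41] using this
        have hd2 : orderOf c ∣ 2 := by
          rcases hd with h2 | h2 | h2
          · rw [h2]; norm_num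
          · rw [h2]
          · exact absurd h2 hc4
        exact orderOf_dvd_iff_pow_eq_one.mp hd2
  · -- 14
    right
    obtain ⟨P⟩ : Nonempty (Sylow 7 M) := inferInstance
    have hM3 : Nat.card M = 7 * 2 := by rw [h1]
    have hM3' : Nat.card M = 7 ^ 1 * 2 := by rw [h1]; norm_num
    have hc : Nat.card (P : Subgroup M) = 7 := by
      simpa using card_sylow_eq hM3' (by norm_num) P
    exact h7case P hc (normal_sylow_of_card hM3 (by norm_num) (by norm_num) P)
  · -- 21
    right
    obtain ⟨P⟩ : Nonempty (Sylow 7 M) := inferInstance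
    have hM3 : Nat.card M = 7 * 3 := by rw [h1]
    have hM3' : Nat.card M = 7 ^ 1 * 3 := by rw [h1]; norm_num
    have hc : Nat.card (P : Subgroup M) = 7 := by
      simpa using card_sylow_eq hM3' (by norm_num) P
    exact h7case P hc (normal_sylow_of_card hM3 (by norm_num) (by norm_num) P)
  · -- 24
    left
    apply Cfsg.Agent.S1012.result h1
    intro g hg
    rw [Subgroup.orderOf_coe g |>.symm] at hg
    rcases orderOf_mem h (g : G) with h1 | h1 | h1 | h1 | h1 <;> omega
  · -- 28
    exfalso
    have h3 : M.index = 6 := by rw [h1] at hidx; omega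
    rw [h3] at hfac
    revert hfac
    decide
  · exfalso
    have h3 : M.index = 4 := by rw [h1] at hidx; omega
    rw [h3] at hfac
    revert hfac
    decide
  · exfalso
    have h3 : M.index = 3 := by rw [h1] at hidx; omega
    rw [h3] at hfac
    revert hfac
    decide
  · exfalso
    have h3 : M.index = 2 := by rw [h1] at hidx; omega
    rw [h3] at hfac
    revert hfac
    decide
  · exfalso
    have h3 : M.index = 1 := by rw [h1] at hidx; omega
    exact hM.1 (Subgroup.index_eq_one.mp h3)

/-- A coatom of order 21 is the normalizer of a Sylow 7-subgroup. -/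
theorem coatom21 {M : Subgroup G} (hM : IsCoatom M) (hc : Nat.card M = 21) :
    ∃ Q : Sylow 7 G, M = Subgroup.normalizer ((Q : Subgroup G) : Set G) := by
  have h7f : Fact (Nat.Prime 7) := ⟨by norm_num⟩
  obtain ⟨P⟩ : Nonempty (Sylow 7 M) := inferInstance
  have hM3 : Nat.card M = 7 * 3 := by rw [hc]
  have hM3' : Nat.card M = 7 ^ 1 * 3 := by rw [hc]; norm_num
  have hcP : Nat.card (P : Subgroup M) = 7 := by
    simpa using card_sylow_eq hM3' (by norm_num) P
  have hn := normal_sylow_of_card hM3 (by norm_num) (by norm_num) P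
  obtain ⟨Q, hQ⟩ := exists_sylow_of_map (card_P7 h) (P : Subgroup M) hcP
  have hle : M ≤ Subgroup.normalizer ((Q : Subgroup G) : Set G) := by
    rw [hQ]
    exact le_normalizer_map_subtype (P : Subgroup M) hn
  have hN := card_N7 h Q
  have hNtop : Subgroup.normalizer ((Q : Subgroup G) : Set G) ≠ ⊤ := by
    intro h1
    rw [h1, Subgroup.card_top, h] at hN
    omega
  exact ⟨Q, coatom_eq_of_le_ne_top hM hle hNtop⟩

/-- Coatoms of order 21 are conjugate. -/
theorem coatom21_conj {M M' : Subgroup G} (hM : IsCoatom M) (hM' : IsCoatom M')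
    (hc : Nat.card M = 21) (hc' : Nat.card M' = 21) :
    ∃ g : G, M' = M.map (MulAut.conj g).toMonoidHom := by
  obtain ⟨Q, rfl⟩ := coatom21 h hM hc
  obtain ⟨Q', rfl⟩ := coatom21 h hM' hc'
  obtain ⟨g, rfl⟩ := MulAction.exists_smul_eq G Q Q'
  refine ⟨g, ?_⟩
  rw [← normalizer_map_conj, coe_smul_eq_map]

omit [IsSimpleGroup G] in
/-- A subgroup of order 24 is a coatom. -/
theorem coatom_of_card {M : Subgroup G} (hc : Nat.card M = 24) : IsCoatom M := by
  constructor
  · rintro rfl
    rw [Subgroup.card_top, h] at hc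
    omega
  · intro K hK
    have hd := Subgroup.card_dvd_of_le hK.le
    have hidx := K.card_mul_index
    rw [h] at hidx
    rw [hc] at hd
    obtain ⟨k, hk⟩ := hd
    rw [hk] at hidx
    have hk7 : k ∣ 7 := by
      have h3 : 24 * (k * K.index) = 24 * 7 := by rw [← mul_assoc, hidx]
      exact ⟨K.index, (Nat.eq_of_mul_eq_mul_left (by norm_num) h3).symm⟩
    rcases (Nat.dvd_prime (by norm_num : Nat.Prime 7)).mp hk7 with rfl | rfl
    · exfalso
      apply hK.ne
      exact Subgroup.eq_of_le_of_card_ge hK.le (by rw [hk, hc])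
    · have h1 : K.index = 1 := by omega
      exact Subgroup.index_eq_one.mp h1

omit [Finite G] [IsSimpleGroup G] h in
/-- A subgroup isomorphic to `S₄` normalizes a Klein four-subgroup. -/
theorem exists_klein_of_iso {M : Subgroup G} (e : ↥M ≃* Equiv.Perm (Fin 4)) :
    ∃ U : Subgroup G, IsKleinFour U ∧ M ≤ Subgroup.normalizer (U : Set G) := by
  have hα : Nat.card (Fin 4) = 4 := by simp
  have hkk := alternatingGroup.kleinFour_isKleinFour hα
  have hch := alternatingGroup.characteristic_kleinFour hα
  let V₀ : Subgroup (Equiv.Perm (Fin 4)) :=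
    (alternatingGroup.kleinFour (Fin 4)).map (alternatingGroup (Fin 4)).subtype
  have hV₀ : V₀.Normal := ConjAct.normal_of_characteristic_of_normal
  have hV₀k : IsKleinFour V₀ := isKleinFour_map hkk _ (Subgroup.subtype_injective _)
  let V₁ : Subgroup M := V₀.map e.symm.toMonoidHom
  have hV₁ : V₁.Normal := hV₀.map _ e.symm.surjective
  have hV₁k : IsKleinFour V₁ := isKleinFour_map hV₀k _ e.symm.injective
  exact ⟨V₁.map M.subtype, isKleinFour_map hV₁k _ (Subgroup.subtype_injective _),
    le_normalizer_map_subtype V₁ hV₁⟩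

/-- The classes of the maximal subgroups isomorphic to `S₄`. -/
theorem coatom_s4_classes : ∃ M₁ M₂ : Subgroup G, IsCoatom M₁ ∧ IsCoatom M₂ ∧
    Nonempty (↥M₁ ≃* Equiv.Perm (Fin 4)) ∧ Nonempty (↥M₂ ≃* Equiv.Perm (Fin 4)) ∧
    (∀ g : G, M₂ ≠ M₁.map (MulAut.conj g).toMonoidHom) ∧
    ∀ M : Subgroup G, IsCoatom M → Nonempty (↥M ≃* Equiv.Perm (Fin 4)) →
      ∃ g : G, M = M₁.map (MulAut.conj g).toMonoidHom ∨ M = M₂.map (MulAut.conj g).toMonoidHom := by
  obtain ⟨T⟩ : Nonempty (Sylow 2 G) := inferInstance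
  obtain ⟨U₁, U₂, hne, h1, h2, k1, k2, hall⟩ := exists_two_klein h T
  refine ⟨Subgroup.normalizer (U₁ : Set G), Subgroup.normalizer (U₂ : Set G),
    coatom_of_card h (card_normalizer_klein h k1), coatom_of_card h (card_normalizer_klein h k2),
    normalizer_klein_iso h k1, normalizer_klein_iso h k2, ?_, ?_⟩
  · intro g hg
    rw [← normalizer_map_conj] at hg
    have h3 := klein_eq_of_normalizer_eq h k2 (isKleinFour_map k1 _ (MulAut.conj g).injective) hg
    exact klein_not_conj h T h1 h2 k1 k2 hne.symm.symm g h3.symm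
  · rintro M hM ⟨e⟩
    obtain ⟨U, hK, hU⟩ := exists_klein_of_iso e
    have hMeq := coatom_eq_of_le_ne_top hM hU (normalizer_klein_ne_top h hK)
    obtain ⟨T', hT'⟩ := (isPGroup_klein hK).exists_le_sylow
    obtain ⟨g, rfl⟩ := MulAction.exists_smul_eq G T T'
    -- pull back
    have hmap : (U.map (MulAut.conj g⁻¹).toMonoidHom).map (MulAut.conj g).toMonoidHom = U := by
      rw [← map_conj_mul]
      ext x
      simp
    have hU' : U.map (MulAut.conj g⁻¹).toMonoidHom ≤ (T : Subgroup G) := by
      rintro _ ⟨u, hu, rfl⟩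
      have h3 := hT' hu
      rw [coe_smul_eq_map] at h3
      obtain ⟨t, ht, rfl⟩ := h3
      have : (MulAut.conj g⁻¹).toMonoidHom ((MulAut.conj g).toMonoidHom t) = t := by
        show g⁻¹ * (g * t * g⁻¹) * g⁻¹⁻¹ = t
        group
      rw [this]
      exact ht
    have hK' : IsKleinFour (U.map (MulAut.conj g⁻¹).toMonoidHom) :=
      isKleinFour_map hK _ (MulAut.conj g⁻¹).injective
    refine ⟨g, ?_⟩
    rcases hall _ hU' hK' with h3 | h3
    · left
      rw [hMeq, ← normalizer_map_conj, ← h3, hmap]
    · right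
      rw [hMeq, ← normalizer_map_conj, ← h3, hmap]

end Simple

end Cfsg.Agent.Lib.SmallSimple.G168e
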