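import Cfsg.Agent.Lib.SmallSimple.G168
import Cfsg.Agent.Lib.SmallSimple.Inter
import Cfsg.Agent.Lib.Char.Burnside

/-!
Simple groups of order `p² q r`.
-/

set_option autoImplicit false

namespace Cfsg.Agent.Lib.SmallSimple.P2QR

open Cfsg.Agent.Lib.Small.Basic Cfsg.Agent.Lib.Small.Sieve Cfsg.Agent.Lib.SmallSimple.Count
  Cfsg.Agent.Lib.SmallSimple.G168 Cfsg.Agent.Lib.SmallSimple.Inter

variable {G : Type*} [Group G] [Finite G]

/-- An element of `s`-power order normalizing `H`: then `s` divides the number of elements of `H`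
not fixed by it. -/
theorem dvd_card_sub_fixed {H : Subgroup G} {x : G} (hx : x ∈ Subgroup.normalizer (H : Set G))
    {s n : ℕ} [hs : Fact s.Prime] (hxs : x ^ s ^ n = 1) :
    s ∣ Nat.card H - Nat.card ↥(H ⊓ Subgroup.centralizer ({x} : Set G)) := by
  classical
  by_contra hcard
  have := Fintype.ofFinite {g : G // g ∈ H ∧ x * g * x⁻¹ ≠ g}
  let σ : Equiv.Perm {g : G // g ∈ H ∧ x * g * x⁻¹ ≠ g} :=
    { toFun := fun g => ⟨x * g.1 * x⁻¹, (Subgroup.mem_set_normalizer_iff.mp hx g.1).mp g.2.1, by
        intro h1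
        apply g.2.2
        exact mul_left_cancel (mul_right_cancel h1)⟩
      invFun := fun g => ⟨x⁻¹ * g.1 * x, by
          have h2 := (Subgroup.mem_set_normalizer_iff.mp hx (x⁻¹ * g.1 * x))
          apply h2.mpr
          have : x * (x⁻¹ * g.1 * x) * x⁻¹ = g.1 := by group
          rw [this]; exact g.2.1, by
        intro h1
        apply g.2.2
        have h3 : x * (x⁻¹ * g.1 * x) * x⁻¹ = g.1 := by group
        rw [h1] at h3
        calc x * g.1 * x⁻¹ = x * (x⁻¹ * g.1 * x) * x⁻¹ := by rw [h3]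
          _ = g.1 := by group⟩
      left_inv := fun g => by apply Subtype.ext; simp [mul_assoc]
      right_inv := fun g => by apply Subtype.ext; simp [mul_assoc] }
  have hpow : ∀ k : ℕ, ∀ g, ((σ ^ k) g).1 = x ^ k * g.1 * (x ^ k)⁻¹ := by
    intro k
    induction k with
    | zero => intro g; simp
    | succ k ih =>
      intro g
      rw [pow_succ', Equiv.Perm.mul_apply]
      show x * ((σ ^ k) g).1 * x⁻¹ = _
      rw [ih g, pow_succ']
      group
  have hσ : σ ^ s ^ n = 1 := by
    ext g
    rw [hpow, hxs]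
    simp
  have hc : Fintype.card {g : G // g ∈ H ∧ x * g * x⁻¹ ≠ g} =
      Nat.card H - Nat.card ↥(H ⊓ Subgroup.centralizer ({x} : Set G)) := by
    rw [← Nat.card_eq_fintype_card]
    have h1 : Nat.card {g : G // g ∈ H ∧ x * g * x⁻¹ ≠ g} =
        ((H : Set G) \ ((H ⊓ Subgroup.centralizer ({x} : Set G) : Subgroup G) : Set G)).ncard := by
      rw [← Nat.card_coe_set_eq]
      apply Nat.card_congr
      apply Equiv.subtypeEquivRight
      intro g
      constructor
      · rintro ⟨h2, h3⟩
        refine ⟨h2, ?_⟩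
        intro h4
        apply h3
        have h5 : g * x = x * g := Subgroup.mem_centralizer_singleton_iff.mp h4.2
        rw [← h5]
        group
      · rintro ⟨h2, h3⟩
        refine ⟨h2, ?_⟩
        intro h4
        apply h3
        refine ⟨h2, ?_⟩
        show g ∈ Subgroup.centralizer ({x} : Set G)
        rw [Subgroup.mem_centralizer_singleton_iff]
        calc g * x = (x * g * x⁻¹) * x := by rw [h4]
          _ = x * g := by group
    rw [h1, Set.ncard_sdiff (by
      intro y hy
      exact hy.1) (Set.toFinite _), ← Nat.card_coe_set_eq, ← Nat.card_coe_set_eq]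
    rfl
  obtain ⟨t, ht⟩ := Equiv.Perm.exists_fixed_point_of_prime (by rw [hc]; exact hcard) hσ
  exact t.2.2 (congrArg Subtype.val ht)

/-- In a nonabelian simple group, a Sylow subgroup of prime order `l` forces a smaller prime. -/
theorem exists_prime_lt_of_sylow_prime [IsSimpleGroup G] (hG : ¬ IsMulCommutative G) {l : ℕ}
    [hl : Fact l.Prime] (hd : l ∣ Nat.card G) (S : Sylow l G) (hS : Nat.card (S : Subgroup G) = l) :
    ∃ s, s.Prime ∧ s < l ∧ s ∣ Nat.card G := by
  have hN := normalizer_not_le_centralizer hG l hd S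
  set d := (Subgroup.centralizer ((S : Subgroup G) : Set G)).relIndex
    (Subgroup.normalizer ((S : Subgroup G) : Set G)) with hddef
  have hd1 : d ≠ 1 := by
    intro h1
    exact hN (Subgroup.relIndex_eq_one.mp h1)
  have hdvd : d ∣ l - 1 := by
    have h1 := relIndex_centralizer_dvd (S : Subgroup G)
    have hcyc : IsCyclic ↥(S : Subgroup G) := isCyclic_of_prime_card hS
    rw [hcyc.card_mulAut, hS, Nat.totient_prime hl.out] at h1
    exact h1
  have hdG : d ∣ Nat.card G := by
    have h1 : d ∣ Nat.card (Subgroup.normalizer ((S : Subgroup G) : Set G)) :=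
      Subgroup.relIndex_dvd_card _ _
    exact h1.trans (Subgroup.card_subgroup_dvd_card _)
  have hl1 : 1 < l := hl.out.one_lt
  refine ⟨d.minFac, Nat.minFac_prime hd1, ?_, (Nat.minFac_dvd d).trans hdG⟩
  have h2 : d.minFac ≤ l - 1 :=
    Nat.le_of_dvd (by omega) ((Nat.minFac_dvd d).trans hdvd)
  omega

/-- A nonabelian simple group of order `12 t` (for a prime `t`, not 2 or 3) has order 60. -/
theorem eq_five_of_card [IsSimpleGroup G] (hG : ¬ IsMulCommutative G) (t : ℕ) (ht : t.Prime)
    (ht2 : t ≠ 2) (ht3 : t ≠ 3) (hcard : Nat.card G = 12 * t) : t = 5 := by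
  have htf : Fact t.Prime := ⟨ht⟩
  have hnt : ¬ t ∣ 12 := by
    intro h1
    have h2 : t ∣ 2 ^ 2 * 3 := by simpa using h1
    rcases (Nat.Prime.dvd_mul ht).mp h2 with h3 | h3
    · exact ht2 ((Nat.prime_dvd_prime_iff_eq ht Nat.prime_two).mp (ht.dvd_of_dvd_pow h3))
    · exact ht3 ((Nat.prime_dvd_prime_iff_eq ht Nat.prime_three).mp h3)
  have hc : Nat.card G = t ^ 1 * 12 := by rw [hcard]; ring
  have htd : t ∣ Nat.card G := by rw [hc]; exact ⟨12, by ring⟩
  obtain ⟨R⟩ : Nonempty (Sylow t G) := inferInstance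
  have hRc : Nat.card (R : Subgroup G) = t := by simpa using card_sylow_eq hc hnt R
  have hidx : (R : Subgroup G).index = 12 := index_sylow_eq hc hnt R
  have hn : Nat.card (Sylow t G) ∣ 12 := by rw [← hidx]; exact R.card_dvd_index
  have hmod : Nat.card (Sylow t G) ≡ 1 [MOD t] := card_sylow_modEq_one t G
  have hne := card_sylow_ne_one hG t htd
  have ht5 : 5 ≤ t := by
    have := ht.two_le
    by_contra hcon
    have h4 : t = 4 := by omega
    rw [h4] at ht
    revert ht
    decide
  have hdvd : t ∣ Nat.card (Sylow t G) - 1 := by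
    have h1 : 1 ≤ Nat.card (Sylow t G) := Nat.card_pos
    exact (Nat.modEq_iff_dvd' h1).mp hmod.symm
  have hdivs : Nat.divisors 12 = {1, 2, 3, 4, 6, 12} := by decide +kernel
  have hmem : Nat.card (Sylow t G) ∈ Nat.divisors 12 := Nat.mem_divisors.mpr ⟨hn, by norm_num⟩
  rw [hdivs] at hmem
  simp only [Finset.mem_insert, Finset.mem_singleton] at hmem
  rcases hmem with h1 | h1 | h1 | h1 | h1 | h1
  · exact absurd h1 hne
  · rw [h1] at hdvd
    have := Nat.le_of_dvd (by norm_num) hdvd
    omega
  · rw [h1] at hdvd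
    have := Nat.le_of_dvd (by norm_num) hdvd
    omega
  · rw [h1] at hdvd
    have := Nat.le_of_dvd (by norm_num) hdvd
    omega
  · rw [h1] at hdvd
    exact (Nat.prime_dvd_prime_iff_eq ht (by norm_num)).mp hdvd
  · exfalso
    rw [h1] at hdvd
    have ht11 : t = 11 := (Nat.prime_dvd_prime_iff_eq ht (by norm_num)).mp hdvd
    have h3 := card_sylow_mul_card_normalizer R
    rw [h1, hcard] at h3
    have h4 : Nat.card (Subgroup.normalizer ((R : Subgroup G) : Set G)) = 11 := by
      have h6 : 12 * t = 12 * 11 := by rw [ht11]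
      omega
    have h5 : (R : Subgroup G) = Subgroup.normalizer ((R : Subgroup G) : Set G) :=
      Subgroup.eq_of_le_of_card_ge Subgroup.le_normalizer (by rw [h4, hRc, ht11])
    apply normalizer_not_le_centralizer hG t htd R
    rw [← h5]
    intro x hx
    rw [Subgroup.mem_centralizer_iff]
    intro y hy
    have hcyc : IsCyclic ↥(R : Subgroup G) := isCyclic_of_prime_card hRc
    have := hcyc.isMulCommutative.is_comm.comm ⟨y, hy⟩ ⟨x, hx⟩
    exact congrArg Subtype.val this

/-- A nonabelian simple group of order `p² q r` for distinct primes has order 60. -/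
theorem card_eq_sixty_of_distinct [IsSimpleGroup G] (hG : ¬ IsMulCommutative G) (p q r : ℕ)
    (hp : p.Prime) (hq : q.Prime) (hr : r.Prime) (hpq : p ≠ q) (hpr : p ≠ r) (hqr : q ≠ r)
    (hcard : Nat.card G = p ^ 2 * q * r) : Nat.card G = 60 := by
  have hpf : Fact p.Prime := ⟨hp⟩
  have hqf : Fact q.Prime := ⟨hq⟩
  have hrf : Fact r.Prime := ⟨hr⟩
  -- primes dividing the order
  have hprimes : ∀ s : ℕ, s.Prime → s ∣ Nat.card G → s = p ∨ s = q ∨ s = r := by
    intro s hs hsd
    rw [hcard] at hsd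
    rcases (Nat.Prime.dvd_mul hs).mp hsd with h1 | h1
    · rcases (Nat.Prime.dvd_mul hs).mp h1 with h2 | h2
      · left
        exact (Nat.prime_dvd_prime_iff_eq hs hp).mp (hs.dvd_of_dvd_pow h2)
      · right; left
        exact (Nat.prime_dvd_prime_iff_eq hs hq).mp h2
    · right; right
      exact (Nat.prime_dvd_prime_iff_eq hs hr).mp h1
  have hnqm : ¬ q ∣ p ^ 2 * r := by
    intro h1
    rcases (Nat.Prime.dvd_mul hq).mp h1 with h2 | h2
    · exact hpq ((Nat.prime_dvd_prime_iff_eq hq hp).mp (hq.dvd_of_dvd_pow h2)).symm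
    · exact hqr ((Nat.prime_dvd_prime_iff_eq hq hr).mp h2)
  have hnrm : ¬ r ∣ p ^ 2 * q := by
    intro h1
    rcases (Nat.Prime.dvd_mul hr).mp h1 with h2 | h2
    · exact hpr ((Nat.prime_dvd_prime_iff_eq hr hp).mp (hr.dvd_of_dvd_pow h2)).symm
    · exact hqr ((Nat.prime_dvd_prime_iff_eq hr hq).mp h2).symm
  have hnpm : ¬ p ∣ q * r := by
    intro h1
    rcases (Nat.Prime.dvd_mul hp).mp h1 with h2 | h2
    · exact hpq ((Nat.prime_dvd_prime_iff_eq hp hq).mp h2)
    · exact hpr ((Nat.prime_dvd_prime_iff_eq hp hr).mp h2)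
  have hcq : Nat.card G = q ^ 1 * (p ^ 2 * r) := by rw [hcard]; ring
  have hcr : Nat.card G = r ^ 1 * (p ^ 2 * q) := by rw [hcard]; ring
  have hcp : Nat.card G = p ^ 2 * (q * r) := by rw [hcard]; ring
  have hqd : q ∣ Nat.card G := by rw [hcq]; exact ⟨p ^ 2 * r, by ring⟩
  have hrd : r ∣ Nat.card G := by rw [hcr]; exact ⟨p ^ 2 * q, by ring⟩
  have hpd : p ∣ Nat.card G := by rw [hcp]; exact Dvd.dvd.mul_right (dvd_pow_self p two_ne_zero) _
  have hq2 : ¬ q ^ 2 ∣ Nat.card G := by
    intro h1
    rw [hcq, pow_two, pow_one] at h1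
    exact hnqm (Nat.dvd_of_mul_dvd_mul_left hq.pos h1)
  have hr2 : ¬ r ^ 2 ∣ Nat.card G := by
    intro h1
    rw [hcr, pow_two, pow_one] at h1
    exact hnrm (Nat.dvd_of_mul_dvd_mul_left hr.pos h1)
  -- `p` is smaller than `q`
  have hSq : ∀ Q : Sylow q G, Nat.card (Q : Subgroup G) = q := fun Q => by
    simpa using card_sylow_eq hcq hnqm Q
  have hSr : ∀ Q : Sylow r G, Nat.card (Q : Subgroup G) = r := fun Q => by
    simpa using card_sylow_eq hcr hnrm Q
  have hpq' : p < q := by
    by_contra hcon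
    have hqp : q < p := by omega
    by_cases hrq : r < q
    · obtain ⟨Q⟩ : Nonempty (Sylow r G) := inferInstance
      obtain ⟨s, hs, hlt, hsd⟩ := exists_prime_lt_of_sylow_prime hG hrd Q (hSr Q)
      rcases hprimes s hs hsd with rfl | rfl | rfl <;> omega
    · obtain ⟨Q⟩ : Nonempty (Sylow q G) := inferInstance
      obtain ⟨s, hs, hlt, hsd⟩ := exists_prime_lt_of_sylow_prime hG hqd Q (hSq Q)
      rcases hprimes s hs hsd with rfl | rfl | rfl <;> omega
  have hpr' : p < r := by
    by_contra hcon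
    have hrp : r < p := by omega
    obtain ⟨Q⟩ : Nonempty (Sylow r G) := inferInstance
    obtain ⟨s, hs, hlt, hsd⟩ := exists_prime_lt_of_sylow_prime hG hrd Q (hSr Q)
    rcases hprimes s hs hsd with rfl | rfl | rfl <;> omega
  -- The Sylow `p`-subgroup
  obtain ⟨V⟩ : Nonempty (Sylow p G) := inferInstance
  have hVcard : Nat.card (V : Subgroup G) = p ^ 2 := card_sylow_eq hcp hnpm V
  have hVcomm : ∀ a b : ↥(V : Subgroup G), a * b = b * a := by
    have := IsPGroup.isMulCommutative_of_card_eq_prime_sq (p := p) hVcard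
    exact this.is_comm.comm
  have hVC : (V : Subgroup G) ≤ Subgroup.centralizer ((V : Subgroup G) : Set G) := by
    intro x hx
    rw [Subgroup.mem_centralizer_iff]
    intro y hy
    exact congrArg Subtype.val (hVcomm ⟨y, hy⟩ ⟨x, hx⟩)
  have hN := normalizer_not_le_centralizer hG p hpd V
  set C := Subgroup.centralizer ((V : Subgroup G) : Set G) with hC
  set N := Subgroup.normalizer ((V : Subgroup G) : Set G) with hNdef
  have hCN : C ≤ N := Subgroup.centralizer_le_normalizer _
  set d := C.relIndex N with hddef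
  have hd1 : d ≠ 1 := by
    intro h1
    exact hN (Subgroup.relIndex_eq_one.mp h1)
  have hmul : Nat.card C * d = Nat.card N := by
    have h1 := (C.subgroupOf N).card_mul_index
    rw [card_subgroupOf, inf_eq_left.mpr hCN] at h1
    exact h1
  have hNG : Nat.card N ∣ p ^ 2 * (q * r) := by
    rw [← hcp]
    exact Subgroup.card_subgroup_dvd_card N
  obtain ⟨c, hc⟩ : p ^ 2 ∣ Nat.card C := by
    rw [← hVcard]
    exact Subgroup.card_dvd_of_le hVC
  have hdqr : d ∣ q * r := by
    rw [← hmul, hc, mul_assoc] at hNG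
    have h1 := Nat.dvd_of_mul_dvd_mul_left (pow_pos hp.pos 2) hNG
    exact (Dvd.intro_left c rfl).trans h1
  set s := d.minFac with hsdef
  have hsp : s.Prime := Nat.minFac_prime hd1
  have hsf : Fact s.Prime := ⟨hsp⟩
  have hsd : s ∣ d := Nat.minFac_dvd d
  have hsqr : s = q ∨ s = r := by
    rcases (Nat.Prime.dvd_mul hsp).mp (hsd.trans hdqr) with h1 | h1
    · left; exact (Nat.prime_dvd_prime_iff_eq hsp hq).mp h1
    · right; exact (Nat.prime_dvd_prime_iff_eq hsp hr).mp h1
  have hps : p < s := by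
    rcases hsqr with h1 | h1 <;> rw [h1] <;> assumption
  have hs2 : ¬ s ^ 2 ∣ Nat.card G := by
    rcases hsqr with h1 | h1 <;> rw [h1] <;> assumption
  have hsC : ¬ s ∣ Nat.card C := by
    intro h1
    apply hs2
    have h2 : s ^ 2 ∣ Nat.card N := by
      rw [← hmul, pow_two]
      exact mul_dvd_mul h1 hsd
    exact h2.trans (Subgroup.card_subgroup_dvd_card N)
  obtain ⟨x, hx⟩ := exists_prime_orderOf_dvd_card' (G := N) s (by
    rw [← hmul]
    exact Dvd.dvd.mul_left hsd _)
  have hx' : orderOf (x : G) = s := by rw [Subgroup.orderOf_coe]; exact hx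
  have hxC : (x : G) ∉ C := by
    intro h1
    apply hsC
    have := orderOf_dvd_natCard (⟨x, h1⟩ : C)
    rwa [Subgroup.orderOf_mk, hx'] at this
  set K := (V : Subgroup G) ⊓ Subgroup.centralizer ({(x : G)} : Set G) with hK
  have hKd : Nat.card K ∣ p ^ 2 := by
    rw [← hVcard]
    exact Subgroup.card_dvd_of_le inf_le_left
  have hsdvd := dvd_card_sub_fixed (H := (V : Subgroup G)) (x := (x : G)) x.2 (s := s) (n := 1) (by
    rw [pow_one, ← hx']
    exact pow_orderOf_eq_one _)
  rw [hVcard, ← hK] at hsdvd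
  obtain ⟨j, hj, hj2⟩ := (Nat.dvd_prime_pow hp).mp hKd
  have hj3 : j ≠ 2 := by
    rintro rfl
    apply hxC
    have h1 : K = (V : Subgroup G) := Subgroup.eq_of_le_of_card_ge inf_le_left (by
      rw [hVcard, hj2])
    rw [hC, Subgroup.mem_centralizer_iff]
    intro y hy
    have h2 : y ∈ K := by rw [h1]; exact hy
    have h3 : y ∈ Subgroup.centralizer ({(x : G)} : Set G) := h2.2
    rw [Subgroup.mem_centralizer_singleton_iff] at h3
    exact h3
  have hp2 : 2 ≤ p := hp.two_le
  have hmain : p = 2 ∧ s = 3 := by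
    have hj01 : j = 0 ∨ j = 1 := by omega
    rcases hj01 with rfl | rfl
    · rw [hj2, pow_zero] at hsdvd
      have h1 : p ^ 2 - 1 = (p - 1) * (p + 1) := by
        obtain ⟨m, rfl⟩ : ∃ m, p = m + 1 := ⟨p - 1, by omega⟩
        simp only [Nat.add_sub_cancel]
        have : (m + 1) ^ 2 - 1 = m * (m + 1 + 1) := by
          have h2 : (m + 1) ^ 2 = m * (m + 1 + 1) + 1 := by ring
          omega
        exact this
      rw [h1] at hsdvd
      rcases (Nat.Prime.dvd_mul hsp).mp hsdvd with h2 | h2
      · have := Nat.le_of_dvd (by omega) h2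
        omega
      · have h3 := Nat.le_of_dvd (by omega) h2
        have h4 : s = p + 1 := by omega
        rcases hp.eq_two_or_odd with h5 | h5
        · rw [h5] at h4
          exact ⟨h5, h4⟩
        · exfalso
          rcases hsp.eq_two_or_odd with h6 | h6 <;> omega
    · rw [hj2, pow_one] at hsdvd
      exfalso
      have h1 : p ^ 2 - p = p * (p - 1) := by
        obtain ⟨m, rfl⟩ : ∃ m, p = m + 1 := ⟨p - 1, by omega⟩
        simp only [Nat.add_sub_cancel]
        have h2 : (m + 1) ^ 2 = (m + 1) * m + (m + 1) := by ring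
        omega
      rw [h1] at hsdvd
      rcases (Nat.Prime.dvd_mul hsp).mp hsdvd with h2 | h2
      · have := Nat.le_of_dvd (by omega) h2
        omega
      · have := Nat.le_of_dvd (by omega) h2
        omega
  obtain ⟨hp2', hs3⟩ := hmain
  subst hp2'
  rcases hsqr with h1 | h1
  · rw [hs3] at h1
    subst h1
    have h2 := eq_five_of_card hG r hr (by omega) (by omega) (by rw [hcard]; ring)
    rw [hcard, h2]
    norm_num
  · rw [hs3] at h1
    subst h1
    have h2 := eq_five_of_card hG q hq (by omega) (by omega) (by rw [hcard]; ring)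
    rw [hcard, h2]
    norm_num

/-- If a finite simple group has order `p² q r`, then its order is 60. -/
theorem main [IsSimpleGroup G] (p q r : ℕ) (hp : p.Prime) (hq : q.Prime) (hr : r.Prime)
    (hcard : Nat.card G = p ^ 2 * q * r) : Nat.card G = 60 := by
  have hnp : ¬ (Nat.card G).Prime := by
    rw [hcard]
    intro h1
    rcases h1.isUnit_or_isUnit rfl with h3 | h3
    · have h4 := Nat.isUnit_iff.mp h3
      have h5 : q ∣ 1 := by
        rw [← h4]
        exact Dvd.intro_left _ rfl
      exact hq.one_lt.ne' (Nat.dvd_one.mp h5)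
    · exact hr.one_lt.ne' (Nat.isUnit_iff.mp h3)
  have hG := not_comm_of_not_prime (G := G) hnp
  have hsolv : ∀ (a b x y : ℕ), a.Prime → b.Prime → Nat.card G = a ^ x * b ^ y → False := by
    intro a b x y ha hb hc
    have h1 := Cfsg.Agent.Lib.Char.Burnside.isSolvable_of_card_eq a b x y ha hb hc
    have h2 := IsSimpleGroup.comm_iff_isSolvable.mpr h1
    exact hG ⟨⟨h2⟩⟩
  by_cases hpq : p = q
  · subst hpq
    exact (hsolv p r 3 1 hp hr (by rw [hcard]; ring)).elim
  by_cases hpr : p = r
  · subst hpr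
    exact (hsolv p q 3 1 hp hq (by rw [hcard]; ring)).elim
  by_cases hqr : q = r
  · subst hqr
    exact (hsolv p q 2 2 hp hq (by rw [hcard]; ring)).elim
  exact card_eq_sixty_of_distinct hG p q r hp hq hr hpq hpr hqr hcard

end Cfsg.Agent.Lib.SmallSimple.P2QR
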