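import Mathlib

/-!
Transitive groups of prime degree with a prime index normalizer quotient are simple.
-/

set_option autoImplicit false

namespace Cfsg.Agent.Lib.SmallSimple.PrimeDegree

open MulAction

variable {H : Type*} [Group H] [Finite H] {α : Type*} [Finite α] [MulAction H α]
  [FaithfulSMul H α] {p : ℕ} [hp : Fact p.Prime]

omit [FaithfulSMul H α] [Finite H] [Finite α] in
/-- A transitive subgroup has order divisible by the degree. -/
theorem dvd_card_of_pretransitive (N : Subgroup H) [IsPretransitive N α] (hα : Nat.card α = p) :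
    p ∣ Nat.card N := by
  have hp0 : 0 < p := hp.out.pos
  have : Nonempty α := by
    apply (Nat.card_pos_iff.mp (by rw [hα]; exact hp0)).1
  obtain ⟨a⟩ := this
  have h1 := (stabilizer N a).index_mul_card
  rw [MulAction.index_stabilizer, isPretransitive_iff_orbit_eq_univ a |>.mp inferInstance,
    Set.ncard_univ, hα] at h1
  rw [← h1]
  exact Dvd.intro _ rfl

omit [Finite H] in
/-- The square of the degree does not divide the order. -/
theorem not_sq_dvd_card [Finite H] (hα : Nat.card α = p) : ¬ p ^ 2 ∣ Nat.card H := by
  classical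
  have := Fintype.ofFinite α
  intro h1
  have hinj : Function.Injective (MulAction.toPermHom H α) := by
    intro x y hxy
    apply FaithfulSMul.eq_of_smul_eq_smul (α := α)
    intro a
    have := congrArg (fun f : Equiv.Perm α => f a) hxy
    exact this
  have h2 : Nat.card H ∣ Nat.card (Equiv.Perm α) := Subgroup.card_dvd_of_injective _ hinj
  have h3 : Nat.card (Equiv.Perm α) = p.factorial := by
    rw [Nat.card_eq_fintype_card, Fintype.card_perm, ← Nat.card_eq_fintype_card, hα]
  rw [h3] at h2
  have h4 := h1.trans h2
  obtain ⟨m, rfl⟩ : ∃ m, p = m + 1 := ⟨p - 1, by have := hp.out.pos; omega⟩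
  rw [Nat.factorial_succ, pow_two] at h4
  have h5 := Nat.dvd_of_mul_dvd_mul_left (Nat.succ_pos m) h4
  have h6 := (hp.out.dvd_factorial).mp h5
  omega

omit [Finite α] [Finite H] in
/-- A nontrivial normal subgroup of a transitive group of prime degree is transitive. -/
theorem pretransitive_of_normal [IsPretransitive H α] (hα : Nat.card α = p) {N : Subgroup H}
    [hN : N.Normal] (hNb : N ≠ ⊥) : IsPretransitive N α := by
  have hprim : IsPreprimitive H α := IsPreprimitive.of_prime_card (by rw [hα]; exact hp.out)
  apply hprim.isQuasiPreprimitive.isPretransitive_of_normal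
  intro hfix
  apply hNb
  rw [eq_bot_iff]
  intro n hn
  rw [Subgroup.mem_bot]
  apply FaithfulSMul.eq_of_smul_eq_smul (α := α)
  intro a
  have h1 : a ∈ fixedPoints N α := by rw [hfix]; trivial
  rw [one_smul]
  exact h1 ⟨n, hn⟩

/-- **Theorem**: transitive groups of prime degree, with more than one Sylow subgroup and with a
prime index of the Sylow subgroup in its normalizer, are simple. -/
theorem simple_of_prime_degree [IsPretransitive H α] (hα : Nat.card α = p) (P : Sylow p H)
    (hn : 1 < Nat.card (Sylow p H))
    (ht : (((P : Subgroup H).subgroupOf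
      (Subgroup.normalizer ((P : Subgroup H) : Set H))).index).Prime) :
    IsSimpleGroup H := by
  have hp2 := not_sq_dvd_card (H := H) hα
  have hTop : IsPretransitive (⊤ : Subgroup H) α := by
    constructor
    intro a b
    obtain ⟨g, hg⟩ := MulAction.exists_smul_eq H a b
    exact ⟨⟨g, trivial⟩, hg⟩
  have hpH : p ∣ Nat.card H := by
    have := dvd_card_of_pretransitive (⊤ : Subgroup H) hα
    rwa [Subgroup.card_top] at this
  -- Sylow subgroups have order `p`.
  have hPcard : ∀ Q : Sylow p H, Nat.card (Q : Subgroup H) = p := by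
    intro Q
    have h1 : p ∣ Nat.card (Q : Subgroup H) := Q.dvd_card_of_dvd_card hpH
    obtain ⟨k, hk⟩ := Q.isPGroup'.exists_card_eq
    rw [hk] at h1 ⊢
    rcases Nat.lt_trichotomy k 1 with h | h | h
    · have : k = 0 := by omega
      rw [this] at h1
      have := Nat.le_of_dvd (by norm_num) h1
      have := hp.out.two_le
      simp at h1
      omega
    · rw [h, pow_one]
    · exfalso
      apply hp2
      have h3 : p ^ 2 ∣ p ^ k := pow_dvd_pow p h
      rw [← hk] at h3
      exact h3.trans (Subgroup.card_subgroup_dvd_card _)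
  have hPcyc : IsCyclic ↥(P : Subgroup H) := isCyclic_of_prime_card (hPcard P)
  have hPcomm : ∀ a b : ↥(P : Subgroup H), a * b = b * a := hPcyc.isMulCommutative.is_comm.comm
  have hnontriv : Nontrivial H := by
    by_contra hcon
    rw [not_nontrivial_iff_subsingleton] at hcon
    have := Nat.card_of_subsingleton (1 : H)
    rw [this] at hpH
    exact hp.out.one_lt.ne' (Nat.dvd_one.mp hpH)
  refine ⟨fun N hN => ?_⟩
  by_cases hNb : N = ⊥
  · left; exact hNb
  right
  have hNt : IsPretransitive N α := pretransitive_of_normal hα hNb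
  have hpN : p ∣ Nat.card N := dvd_card_of_pretransitive N hα
  -- `P ≤ N`.
  have hPN : (P : Subgroup H) ≤ N := by
    obtain ⟨x, hx⟩ := exists_prime_orderOf_dvd_card' (G := N) p hpN
    have hx' : orderOf (x : H) = p := by rw [Subgroup.orderOf_coe]; exact hx
    have hle : Subgroup.zpowers (x : H) ≤ N := by
      rw [Subgroup.zpowers_le]; exact x.2
    have hzp : IsPGroup p (Subgroup.zpowers (x : H)) :=
      IsPGroup.of_card (n := 1) (by rw [Nat.card_zpowers, hx', pow_one])
    obtain ⟨Q, hQ⟩ := hzp.exists_le_sylow
    have hQeq : Subgroup.zpowers (x : H) = (Q : Subgroup H) :=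
      Subgroup.eq_of_le_of_card_ge hQ (by rw [hPcard Q, Nat.card_zpowers, hx'])
    obtain ⟨g, rfl⟩ := MulAction.exists_smul_eq H Q P
    rw [Sylow.coe_subgroup_smul]
    rintro _ ⟨y, hy, rfl⟩
    rw [← hQeq] at hy
    exact hN.conj_mem y (hle hy) g
  have hfrat := Sylow.normalizer_sup_eq_top' P hPN
  set NP := Subgroup.normalizer ((P : Subgroup H) : Set H) with hNP
  -- The chain of indices.
  have hPL : (P : Subgroup H) ≤ N ⊓ NP := le_inf hPN Subgroup.le_normalizer
  have hchain := Subgroup.relIndex_mul_relIndex (P : Subgroup H) (N ⊓ NP) NP hPL inf_le_right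
  have ht' : ((P : Subgroup H).relIndex NP).Prime := ht
  rw [← hchain] at ht'
  rcases ht'.isUnit_or_isUnit rfl with h1 | h1
  · -- `N_N(P) = P`
    exfalso
    have hle : N ⊓ NP ≤ (P : Subgroup H) := Subgroup.relIndex_eq_one.mp (Nat.isUnit_iff.mp h1)
    set P' : Sylow p N := P.subtype hPN with hP'def
    have hP'coe : ((P' : Subgroup N)) = (P : Subgroup H).subgroupOf N := Sylow.coe_subtype P hPN
    have hP' : Subgroup.normalizer ((P' : Subgroup N) : Set N) ≤
        Subgroup.centralizer ((P' : Subgroup N) : Set N) := by
      intro x hx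
      rw [Subgroup.mem_centralizer_iff]
      intro y hy
      have hx1 : (x : H) ∈ NP := by
        have h2 := Subgroup.le_normalizer_map (H := (P' : Subgroup N)) N.subtype
        have h3 : (P' : Subgroup N).map N.subtype = (P : Subgroup H) := by
          rw [hP'coe, Subgroup.subgroupOf_map_subtype]
          exact inf_eq_left.mpr hPN
        rw [h3] at h2
        exact h2 ⟨x, hx, rfl⟩
      have hx2 : (x : H) ∈ (P : Subgroup H) := hle ⟨x.2, hx1⟩
      have hy1 : (y : H) ∈ (P : Subgroup H) := by
        rw [hP'coe] at hy
        exact hy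
      apply Subtype.ext
      have h4 := hPcomm ⟨y, hy1⟩ ⟨x, hx2⟩
      have h5 := Subtype.mk.inj h4
      exact h5
    set φ := MonoidHom.transferSylow P' hP' with hφ
    have hcompl := MonoidHom.ker_transferSylow_isComplement' P' hP'
    have hK := MonoidHom.not_dvd_card_ker_transferSylow P' hP'
    rw [← hφ] at hcompl hK
    have hcard := hcompl.card_mul_card
    have hP'card : Nat.card (P' : Subgroup N) = p := by
      rw [hP'coe]
      have h2 : Nat.card ↥((P : Subgroup H).subgroupOf N) = Nat.card (P : Subgroup H) := by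
        rw [← Subgroup.card_map_of_injective N.subtype_injective, Subgroup.subgroupOf_map_subtype,
          inf_eq_left.mpr hPN]
      rw [h2, hPcard P]
    set K' := φ.ker.map N.subtype with hK'
    have hK'card : Nat.card K' = Nat.card φ.ker :=
      Subgroup.card_map_of_injective N.subtype_injective
    have hK'n : K'.Normal := by
      constructor
      rintro _ ⟨k, hk, rfl⟩ g
      have hy : g * (k : H) * g⁻¹ ∈ N := hN.conj_mem k k.2 g
      refine ⟨⟨_, hy⟩, ?_, rfl⟩
      show _ ∈ φ.ker
      rw [MonoidHom.mem_ker]
      set y : N := ⟨_, hy⟩ with hydef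
      have hym : y ^ Nat.card φ.ker = 1 := by
        have h3 : k ^ Nat.card φ.ker = 1 := by
          have h4 := pow_card_eq_one' (x := (⟨k, hk⟩ : φ.ker))
          exact congrArg Subtype.val h4
        apply Subtype.ext
        have h5 : (k : H) ^ Nat.card φ.ker = 1 := by
          have := congrArg Subtype.val h3
          simpa using this
        show (g * (k : H) * g⁻¹) ^ Nat.card φ.ker = 1
        rw [conj_pow, h5]
        simp
      have h6 : (φ y) ^ Nat.card φ.ker = 1 := by
        rw [← map_pow, hym, map_one]
      have h7 : (φ y) ^ p = 1 := by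
        have h8 := pow_card_eq_one' (x := φ y)
        rwa [hP'card] at h8
      have h9 : orderOf (φ y) ∣ Nat.gcd (Nat.card φ.ker) p :=
        Nat.dvd_gcd (orderOf_dvd_of_pow_eq_one h6) (orderOf_dvd_of_pow_eq_one h7)
      have hcop : Nat.gcd (Nat.card φ.ker) p = 1 := by
        rw [Nat.gcd_comm]
        exact (Nat.Prime.coprime_iff_not_dvd hp.out).mpr hK
      rw [hcop, Nat.dvd_one, orderOf_eq_one_iff] at h9
      exact h9
    have hK'b : K' = ⊥ := by
      by_contra hcon
      have hK't : IsPretransitive K' α := pretransitive_of_normal hα hcon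
      have h3 := dvd_card_of_pretransitive K' hα
      rw [hK'card] at h3
      exact hK h3
    have hk1 : Nat.card φ.ker = 1 := by
      rw [← hK'card, hK'b, Subgroup.card_bot]
    rw [hk1, one_mul, hP'card] at hcard
    have hNP : (P : Subgroup H) = N :=
      Subgroup.eq_of_le_of_card_ge hPN (by rw [hPcard P, hcard])
    have hPn : (P : Subgroup H).Normal := by rw [hNP]; exact hN
    have hsub : Unique (Sylow p H) := Sylow.unique_of_normal P hPn
    have := Nat.card_unique (α := Sylow p H)
    omega
  · -- `N(P) ≤ N`
    have hle : NP ≤ N ⊓ NP := Subgroup.relIndex_eq_one.mp (Nat.isUnit_iff.mp h1)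
    have hle2 : NP ≤ N := hle.trans inf_le_left
    have hfrat' : NP ⊔ N = ⊤ := hfrat
    rw [sup_eq_right.mpr hle2] at hfrat'
    exact hfrat'

end Cfsg.Agent.Lib.SmallSimple.PrimeDegree
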